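import Cfsg.Agent.H13.CodeAutStep
import Cfsg.Agent.H13.DataCodeAut

/-!
A linear map of the code with the orbits of `M24` modulo the all-ones word is induced by `M24`.
-/

set_option autoImplicit false

namespace Cfsg.Agent.H13

open MulAction Cfsg.Agent.H12
open scoped Pointwise

/-- All steps pass. -/
def stepsOK : List ℕ → List (ℕ × List PL × MTree) → Bool
  | _, [] => true
  | prev, (o, S, t) :: rest => autStep prev o S t && stepsOK (o :: prev) rest

/-- The words reached after all steps. -/
def finalPrev : List ℕ → List (ℕ × List PL × MTree) → List ℕ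
  | prev, [] => prev
  | prev, (o, _, _) :: rest => finalPrev (o :: prev) rest

theorem autData_ok : stepsOK [] Data.autData = true := by decide +kernel

theorem autData_spans : (genMasks.all fun m =>
    (spanList (allMask :: finalPrev [] Data.autData)).contains m) = true := by decide +kernel

variable (x : ↥golayCode ≃ₗ[ZMod 2] ↥golayCode)
  (horb : ∀ c : ↥golayCode, ∃ σ ∈ M24, Eqv ((x c : ↥golayCode) : GolayPt → ZMod 2)
    (actW σ (c : GolayPt → ZMod 2)))

include horb in
theorem exists_steps : ∀ (L : List (ℕ × List PL × MTree)) (prev : List ℕ),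
    stepsOK prev L = true → (∀ b ∈ prev, isCode b = true) →
    (∃ σ ∈ M24, ∀ b ∈ prev, Agree x σ (word b)) →
    ∃ σ ∈ M24, ∀ b ∈ finalPrev prev L, Agree x σ (word b)
  | [], _, _, _, h => h
  | (o, S, t) :: rest, prev, hok, hcode, ⟨σ, hσ, hag⟩ => by
    rw [stepsOK, Bool.and_eq_true] at hok
    refine exists_steps rest (o :: prev) hok.2 (fun b hb => ?_)
      (exists_step x horb hok.1 hcode hσ hag)
    rcases List.mem_cons.mp hb with rfl | hb
    · have := hok.1
      simp only [autStep, isOctad, Bool.and_eq_true] at this
      exact this.1.1.1.1.1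
    · exact hcode b hb

include horb in
theorem exists_induced_code
    (h1 : ∀ e : ↥golayCode, (e : GolayPt → ZMod 2) = (fun _ => (1 : ZMod 2)) → x e = e) :
    ∃ σ ∈ M24, ∀ c : ↥golayCode,
      Eqv ((x c : ↥golayCode) : GolayPt → ZMod 2) (actW σ (c : GolayPt → ZMod 2)) := by
  obtain ⟨σ, hσ, hag⟩ := exists_steps x horb _ [] autData_ok (by simp)
    ⟨1, Subgroup.one_mem _, by simp⟩
  refine ⟨σ, hσ, ?_⟩
  have hall : word allMask = fun _ => (1 : ZMod 2) := by
    funext p
    have : allMask.testBit (idx p) = true :=
      mem_fin.mp (by rw [fin_allMask]; exact Finset.mem_univ p)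
    simp [word, this]
  have hone : Agree x σ (word allMask) := by
    have hm : word allMask ∈ golayCode := by
      rw [hall]; exact Submodule.subset_span (Or.inr rfl)
    refine ⟨hm, Or.inl ?_⟩
    rw [h1 _ hall]
    show word allMask = actW σ (word allMask)
    rw [hall]
    rfl
  have hgen : ∀ m ∈ genMasks, Agree x σ (word m) := fun m hm => by
    refine agree_spanList x _ (fun b hb => ?_) m
      (List.contains_iff_mem.mp (List.all_eq_true.mp autData_spans m hm))
    rcases List.mem_cons.mp hb with rfl | hb
    exacts [hone, hag b hb]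
  intro c
  obtain ⟨v, hv⟩ := c
  have key : Agree x σ v := by
    revert hv
    intro hv
    induction hv using Submodule.span_induction with
    | mem w hw =>
      obtain ⟨t, rfl⟩ | rfl := hw
      · have hlt : t.val < 23 := ZMod.val_lt t
        have e : word (genMasks.getD t.val 0) = qrWord t := by
          funext p
          rw [word, ← pt_idx p, idx_pt (idx_lt p), genMasks_spec.1 _ hlt _ (idx_lt p),
            ZMod.natCast_zmod_val]
          rcases (show ∀ z : ZMod 2, z = 0 ∨ z = 1 by decide)
            (qrWord t (pt (idx p))) with hw | hw <;> simp [hw]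
        rw [← e]
        refine hgen _ ?_
        rw [List.getD_eq_getElem?_getD,
          List.getElem?_eq_getElem (by rw [show genMasks.length = 24 from rfl]; omega)]
        exact List.getElem_mem _
      · rw [show (1 : GolayPt → ZMod 2) = word allMask from hall.symm]; exact hone
    | zero => exact Agree.zero x σ
    | add a b _ _ ha hb => exact ha.add x hb
    | smul a w _ hw =>
      rcases (show ∀ z : ZMod 2, z = 0 ∨ z = 1 by decide) a with rfl | rfl
      · rw [zero_smul]; exact Agree.zero x σ
      · rwa [one_smul]
  obtain ⟨_, h⟩ := key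
  exact h

end Cfsg.Agent.H13
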