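import Cfsg.Agent.H13.Groups
import Cfsg.Agent.H13.RankTool
import Cfsg.Agent.H11.OctadCounts
import Cfsg.Agent.H11.DodecadList
import Cfsg.Agent.H13.DataHex
import Cfsg.Agent.H13.DataHep
import Cfsg.Agent.H13.DataOct253
import Cfsg.Agent.H13.DataOct506

/-!
The suborbits of M₂₂ and M₂₃ on families of octads.
-/

set_option autoImplicit false

namespace Cfsg.Agent.H13

open MulAction Cfsg.Agent.H12 Data
open scoped Pointwise

theorem mem_octads_list (x : Finset GolayPt) : x ∈ octads ↔ x ∈ H11.octadList.map fin := by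
  rw [H11.octadList_spec.1]
  simp

/-- The octads cut out by a Boolean test on masks. -/
theorem octads_filter {P : Finset GolayPt → Prop} (p : ℕ → Bool)
    (hp : ∀ m, P (fin m) ↔ p m = true) :
    {x : Finset GolayPt | x ∈ octads ∧ P x} =
        (((H11.octadList.filter p).map fin).toFinset : Set (Finset GolayPt)) ∧
      ((H11.octadList.filter p).map fin).Nodup := by
  refine ⟨?_, (List.filter_sublist.map fin).nodup H11.octadList_spec.2⟩
  ext x
  simp only [Set.mem_ofPred_eq, mem_octads_list, List.coe_toFinset, List.mem_map, List.mem_filter]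
  constructor
  · rintro ⟨⟨m, hm, rfl⟩, hx⟩; exact ⟨m, ⟨hm, (hp m).mp hx⟩, rfl⟩
  · rintro ⟨m, ⟨hm, hm'⟩, rfl⟩; exact ⟨⟨m, hm, rfl⟩, (hp m).mpr hm'⟩

theorem none_mem_fin (m : ℕ) : (none : GolayPt) ∈ fin m ↔ m.testBit 23 = true := by
  rw [← pt_none, pt_mem_fin (by norm_num)]

theorem zero_mem_fin (m : ℕ) : (some 0 : GolayPt) ∈ fin m ↔ m.testBit 0 = true := by
  rw [← pt_zero, pt_mem_fin (by norm_num)]

theorem smul_mem_fixed {g : Equiv.Perm GolayPt} {p : GolayPt} (hp : g p = p) (x : Finset GolayPt) :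
    p ∈ g • x ↔ p ∈ x := by
  conv_lhs => rw [← hp]
  exact Finset.smul_mem_smul_finset_iff g

/-- What the rank certificates say, for a family `F` and a group `K` of permutations. -/
def RankSpec (K : Subgroup (Equiv.Perm GolayPt)) (F : Set (Finset GolayPt)) (c : ℕ → ℕ) : Prop :=
  (∀ o ∈ F, ∀ o' ∈ F, ∃ g ∈ K, g • o = o') ∧
    (∀ o ∈ F, ∀ k, {x | x ∈ F ∧ (o ∩ x).card = k}.ncard = c k) ∧
    ∀ o ∈ F, ∀ o' ∈ F, ∀ o'' ∈ F, (o ∩ o').card = (o ∩ o'').card →
      ∃ g ∈ K, g • o = o ∧ g • o' = o''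

theorem g22_fix {g : Equiv.Perm GolayPt} (hg : g ∈ grp g22) :
    g ∈ M24 ∧ g none = none ∧ g (some 0) = some 0 :=
  ⟨g22_le hg, fix_of_grp (i := 23) g22_valid (by norm_num) (by decide +kernel) hg,
    fix_of_grp (i := 0) g22_valid (by norm_num) (by decide +kernel) hg⟩

theorem g23_fix {g : Equiv.Perm GolayPt} (hg : g ∈ grp g23) : g ∈ M24 ∧ g none = none :=
  ⟨g23_le hg, fix_of_grp (i := 23) g23_valid (by norm_num) (by decide +kernel) hg⟩

/-- The masks of the hexads: octads through `none` and `some 0`. -/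
def hexList : List ℕ := H11.octadList.filter fun m => m.testBit 23 && m.testBit 0

/-- The masks of the heptads: octads through `none` avoiding `some 0`. -/
def hepList : List ℕ := H11.octadList.filter fun m => m.testBit 23 && !m.testBit 0

/-- The masks of the octads through `none`. -/
def oct253List : List ℕ := H11.octadList.filter fun m => m.testBit 23

/-- The masks of the octads avoiding `none`. -/
def oct506List : List ℕ := H11.octadList.filter fun m => !m.testBit 23

theorem hex_rank : RankSpec (grp g22)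
    {x | x ∈ octads ∧ ((none : GolayPt) ∈ x ∧ (some 0 : GolayPt) ∈ x)}
    (fun k => (classList hexList hexBase k).length) := by
  obtain ⟨hF, hnd⟩ := octads_filter (P := fun x => (none : GolayPt) ∈ x ∧ (some 0 : GolayPt) ∈ x)
    (fun m => m.testBit 23 && m.testBit 0)
    (fun m => by simp only [none_mem_fin, zero_mem_fin, Bool.and_eq_true])
  exact rank_spec (K := g22) (H := hexStab) (t := hexTree) (cls := hexClasses) (by decide +kernel)
    (grp_le_grp m22Levels g22_valid (by decide +kernel) m22_check (by decide +kernel)) hF hnd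
    fun g hg x => and_congr (smul_mem_octads (g22_fix hg).1)
      (and_congr (smul_mem_fixed (g22_fix hg).2.1 x) (smul_mem_fixed (g22_fix hg).2.2 x))

theorem hep_rank : RankSpec (grp g22)
    {x | x ∈ octads ∧ ((none : GolayPt) ∈ x ∧ (some 0 : GolayPt) ∉ x)}
    (fun k => (classList hepList hepBase k).length) := by
  obtain ⟨hF, hnd⟩ := octads_filter (P := fun x => (none : GolayPt) ∈ x ∧ (some 0 : GolayPt) ∉ x)
    (fun m => m.testBit 23 && !m.testBit 0)
    (fun m => by simp only [none_mem_fin, zero_mem_fin, Bool.and_eq_true, Bool.not_eq_true']; simp)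
  exact rank_spec (K := g22) (H := hepStab) (t := hepTree) (cls := hepClasses) (by decide +kernel)
    (grp_le_grp m22Levels g22_valid (by decide +kernel) m22_check (by decide +kernel)) hF hnd
    fun g hg x => and_congr (smul_mem_octads (g22_fix hg).1)
      (and_congr (smul_mem_fixed (g22_fix hg).2.1 x)
        (not_congr (smul_mem_fixed (g22_fix hg).2.2 x)))

theorem oct253_rank : RankSpec (grp g23) {x | x ∈ octads ∧ (none : GolayPt) ∈ x}
    (fun k => (classList oct253List oct253Base k).length) := by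
  obtain ⟨hF, hnd⟩ := octads_filter (P := fun x => (none : GolayPt) ∈ x) (fun m => m.testBit 23)
    (fun m => none_mem_fin m)
  exact rank_spec (K := g23) (H := oct253Stab) (t := oct253Tree) (cls := oct253Classes)
    (by decide +kernel)
    (grp_le_grp m23Levels g23_valid (by decide +kernel) m23_check (by decide +kernel)) hF hnd
    fun g hg x => and_congr (smul_mem_octads (g23_fix hg).1) (smul_mem_fixed (g23_fix hg).2 x)

theorem oct506_rank : RankSpec (grp g23) {x | x ∈ octads ∧ (none : GolayPt) ∉ x}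
    (fun k => (classList oct506List oct506Base k).length) := by
  obtain ⟨hF, hnd⟩ := octads_filter (P := fun x => (none : GolayPt) ∉ x) (fun m => !m.testBit 23)
    (fun m => by simp only [none_mem_fin, Bool.not_eq_true']; simp)
  exact rank_spec (K := g23) (H := oct506Stab) (t := oct506Tree) (cls := oct506Classes)
    (by decide +kernel)
    (grp_le_grp m23Levels g23_valid (by decide +kernel) m23_check (by decide +kernel)) hF hnd
    fun g hg x => and_congr (smul_mem_octads (g23_fix hg).1)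
      (not_congr (smul_mem_fixed (g23_fix hg).2 x))

/-- A rank statement moves along an element `c`. -/
theorem RankSpec.conj {K : Subgroup (Equiv.Perm GolayPt)} {F F' : Set (Finset GolayPt)}
    {f : ℕ → ℕ} (h : RankSpec K F f) (c : Equiv.Perm GolayPt)
    (hF : ∀ x, x ∈ F' ↔ c⁻¹ • x ∈ F) :
    RankSpec (MulAut.conj c • K) F' f := by
  obtain ⟨h1, h2, h3⟩ := h
  refine ⟨fun o ho o' ho' => ?_, fun o ho k => ?_, fun o ho o' ho' o'' ho'' hk => ?_⟩
  · obtain ⟨g, hg, he⟩ := h1 _ ((hF o).mp ho) _ ((hF o').mp ho')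
    refine ⟨c * g * c⁻¹, Subgroup.smul_mem_pointwise_smul g (MulAut.conj c) _ hg, ?_⟩
    rw [mul_smul, mul_smul, he, smul_inv_smul]
  · rw [← h2 _ ((hF o).mp ho) k]
    have e : {x | x ∈ F' ∧ (o ∩ x).card = k} = c • {x | x ∈ F ∧ (c⁻¹ • o ∩ x).card = k} := by
      ext x
      rw [Set.mem_smul_set_iff_inv_smul_mem]
      simp only [Set.mem_ofPred_eq, hF]
      rw [← Finset.smul_finset_inter, Finset.card_smul_finset]
    rw [e, Set.ncard_smul_set]
  · obtain ⟨g, hg, he, he'⟩ := h3 _ ((hF o).mp ho) _ ((hF o').mp ho') _ ((hF o'').mp ho'') (by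
      rw [← Finset.smul_finset_inter, ← Finset.smul_finset_inter, Finset.card_smul_finset,
        Finset.card_smul_finset, hk])
    refine ⟨c * g * c⁻¹, Subgroup.smul_mem_pointwise_smul g (MulAut.conj c) _ hg, ?_, ?_⟩
    · rw [mul_smul, mul_smul, he, smul_inv_smul]
    · rw [mul_smul, mul_smul, he', smul_inv_smul]

theorem exists_pair {p q : GolayPt} (hpq : p ≠ q) :
    ∃ c : Equiv.Perm GolayPt, c ∈ M24 ∧ c none = p ∧ c (some 0) = q := by
  obtain ⟨g, h1, h2⟩ := is_two_pretransitive_iff.mp two_pretransitive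
    (by simp : (none : GolayPt) ≠ some 0) hpq
  exact ⟨g, g.2, h1, h2⟩

theorem exists_point (p : GolayPt) : ∃ c : Equiv.Perm GolayPt, c ∈ M24 ∧ c none = p := by
  have := pretransitive
  obtain ⟨g, hg⟩ := exists_smul_eq M24 (none : GolayPt) p
  exact ⟨g, g.2, hg⟩

theorem mem_inv_smul {c : Equiv.Perm GolayPt} {a b : GolayPt} (h : c a = b) (x : Finset GolayPt) :
    a ∈ c⁻¹ • x ↔ b ∈ x := by
  rw [Finset.mem_inv_smul_finset_iff, Equiv.Perm.smul_def, h]

theorem conj_g22 {c : Equiv.Perm GolayPt} {p q : GolayPt} (hc : c ∈ M24) (hp : c none = p)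
    (hq : c (some 0) = q) {g : Equiv.Perm GolayPt} (hg : g ∈ MulAut.conj c • grp g22) :
    g ∈ M24 ∧ g p = p ∧ g q = q := by
  obtain ⟨k, hk, rfl⟩ := hg
  obtain ⟨hm, h1, h2⟩ := g22_fix hk
  refine ⟨Subgroup.mul_mem _ (Subgroup.mul_mem _ hc hm) (Subgroup.inv_mem _ hc), ?_, ?_⟩
  · rw [← hp]; show (c * k * c⁻¹) (c none) = c none; simp [h1]
  · rw [← hq]; show (c * k * c⁻¹) (c (some 0)) = c (some 0); simp [h2]

theorem conj_g23 {c : Equiv.Perm GolayPt} {p : GolayPt} (hc : c ∈ M24) (hp : c none = p)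
    {g : Equiv.Perm GolayPt} (hg : g ∈ MulAut.conj c • grp g23) : g ∈ M24 ∧ g p = p := by
  obtain ⟨k, hk, rfl⟩ := hg
  obtain ⟨hm, h1⟩ := g23_fix hk
  refine ⟨Subgroup.mul_mem _ (Subgroup.mul_mem _ hc hm) (Subgroup.inv_mem _ hc), ?_⟩
  rw [← hp]; show (c * k * c⁻¹) (c none) = c none; simp [h1]

end Cfsg.Agent.H13
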