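import Cfsg.Agent.H13.RankTool
import Cfsg.Agent.H13.Families
import Cfsg.Agent.H11.Code
import Cfsg.Agent.H12.Code

/-!
Linear maps of the code with the orbits of `M24` modulo the all-ones word: the inductive step.
-/

set_option autoImplicit false

namespace Cfsg.Agent.H13

open MulAction Cfsg.Agent.H12
open scoped Pointwise

/-- Equality modulo the all-ones word. -/
def Eqv (v w : GolayPt → ZMod 2) : Prop := v = w ∨ v = w + fun _ => (1 : ZMod 2)

/-- The action on words. -/
def actW (σ : Equiv.Perm GolayPt) (v : GolayPt → ZMod 2) : GolayPt → ZMod 2 := fun p => v (σ.symm p)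

theorem one_add_one_w : (fun _ : GolayPt => (1 : ZMod 2)) + (fun _ => 1) = 0 := by
  funext p; exact (by decide : (1 : ZMod 2) + 1 = 0)

theorem Eqv.symm {v w : GolayPt → ZMod 2} (h : Eqv v w) : Eqv w v := by
  rcases h with rfl | rfl
  · exact Or.inl rfl
  · exact Or.inr (by rw [add_assoc, one_add_one_w, add_zero])

theorem Eqv.trans {u v w : GolayPt → ZMod 2} (h : Eqv u v) (h' : Eqv v w) : Eqv u w := by
  rcases h' with rfl | rfl
  · exact h
  · rcases h with rfl | rfl
    · exact Or.inr rfl
    · exact Or.inl (by rw [add_assoc, one_add_one_w, add_zero])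

theorem Eqv.add {a b c d : GolayPt → ZMod 2} (h : Eqv a b) (h' : Eqv c d) : Eqv (a + c) (b + d) := by
  rcases h with rfl | rfl <;> rcases h' with rfl | rfl
  · exact Or.inl rfl
  · exact Or.inr (by rw [add_assoc])
  · exact Or.inr (add_right_comm _ _ _)
  · exact Or.inl (by rw [add_add_add_comm, one_add_one_w, add_zero])

theorem Eqv.act {v w : GolayPt → ZMod 2} (σ : Equiv.Perm GolayPt) (h : Eqv v w) :
    Eqv (actW σ v) (actW σ w) := by
  rcases h with rfl | rfl
  · exact Or.inl rfl
  · exact Or.inr rfl

theorem actW_support (σ : Equiv.Perm GolayPt) (v : GolayPt → ZMod 2) :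
    support₂ (actW σ v) = σ • support₂ v := (H11.smul_support₂ σ v).symm

theorem word_injective_support {v w : GolayPt → ZMod 2} (h : support₂ v = support₂ w) : v = w := by
  rw [← word_support v, h, word_support]

/-- The weight up to complementation. -/
def octT (n : ℕ) : ℕ := min n (24 - n)

theorem Eqv.octT_eq {v w : GolayPt → ZMod 2} (h : Eqv v w) :
    octT (support₂ v).card = octT (support₂ w).card := by
  rcases h with rfl | rfl
  · rfl
  · have : support₂ (w + fun _ => (1 : ZMod 2)) = (support₂ w)ᶜ := by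
      ext p
      simp only [support₂, Finset.mem_filter, Finset.mem_univ, true_and, Finset.mem_compl,
        Pi.add_apply]
      rcases (show ∀ x : ZMod 2, x = 0 ∨ x = 1 by decide) (w p) with h | h <;> rw [h] <;> decide
    rw [this, Finset.card_compl, show Fintype.card GolayPt = 24 from rfl]
    have hle : (support₂ w).card ≤ 24 := Finset.card_le_univ _
    generalize (support₂ w).card = n at hle ⊢
    interval_cases n <;> rfl

variable (x : ↥golayCode ≃ₗ[ZMod 2] ↥golayCode)

/-- `x` agrees with `σ` at the word `v`, modulo the all-ones word. -/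
def Agree (σ : Equiv.Perm GolayPt) (v : GolayPt → ZMod 2) : Prop :=
  ∃ h : v ∈ golayCode, Eqv ((x ⟨v, h⟩ : ↥golayCode) : GolayPt → ZMod 2) (actW σ v)

theorem Agree.zero (σ : Equiv.Perm GolayPt) : Agree x σ 0 :=
  ⟨Submodule.zero_mem _, Or.inl (by
    rw [show (⟨0, Submodule.zero_mem _⟩ : ↥golayCode) = 0 from rfl, map_zero]; rfl)⟩

theorem Agree.add {σ : Equiv.Perm GolayPt} {v w : GolayPt → ZMod 2} (h : Agree x σ v)
    (h' : Agree x σ w) : Agree x σ (v + w) := by
  obtain ⟨hv, e⟩ := h
  obtain ⟨hw, e'⟩ := h'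
  refine ⟨Submodule.add_mem _ hv hw, ?_⟩
  rw [show (⟨v + w, Submodule.add_mem _ hv hw⟩ : ↥golayCode) = ⟨v, hv⟩ + ⟨w, hw⟩ from rfl, map_add]
  exact e.add e'

/-- All sums of sublists, by exclusive or. -/
def spanList : List ℕ → List ℕ
  | [] => [0]
  | b :: l => (spanList l).flatMap fun s => [s, b ^^^ s]

theorem agree_spanList {σ : Equiv.Perm GolayPt} : ∀ l : List ℕ,
    (∀ b ∈ l, Agree x σ (word b)) → ∀ s ∈ spanList l, Agree x σ (word s)
  | [], _, s, hs => by
    rw [spanList, List.mem_singleton] at hs
    rw [hs, word_zero]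
    exact Agree.zero x σ
  | b :: l, h, s, hs => by
    rw [spanList, List.mem_flatMap] at hs
    obtain ⟨t, ht, hs⟩ := hs
    have hl := agree_spanList l (fun c hc => h c (List.mem_cons_of_mem _ hc)) t ht
    simp only [List.mem_cons, List.not_mem_nil, or_false] at hs
    rcases hs with rfl | rfl
    · exact hl
    · rw [word_xor]
      exact (h b (List.mem_cons_self ..)).add x hl

/-- The certificate of one step: generators fixing the earlier octads, an orbit tree of the new
one, and every octad of the same pattern lies in the tree. -/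
def autStep (prev : List ℕ) (o : ℕ) (S : List PL) (t : MTree) : Bool :=
  isOctad o && maskTree S o t && S.all (validB 24) &&
    (S.all fun a => fixesCode (pack a.1) && prev.all fun b => imgMask (pack a.1) b == b) &&
    H11.octadList.all fun O => t.has O ||
      !((spanList prev).all fun s => octT (pop (O ^^^ s)) == octT (pop (o ^^^ s)))

variable (horb : ∀ c : ↥golayCode, ∃ σ ∈ M24, Eqv ((x c : ↥golayCode) : GolayPt → ZMod 2)
  (actW σ (c : GolayPt → ZMod 2)))

include horb in
theorem exists_step {prev : List ℕ} {o : ℕ} {S : List PL} {t : MTree}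
    (h : autStep prev o S t = true) (hprev : ∀ b ∈ prev, isCode b = true)
    {σ : Equiv.Perm GolayPt} (hσ : σ ∈ M24) (hag : ∀ b ∈ prev, Agree x σ (word b)) :
    ∃ σ' ∈ M24, ∀ b ∈ o :: prev, Agree x σ' (word b) := by
  simp only [autStep, Bool.and_eq_true, List.all_eq_true] at h
  obtain ⟨⟨⟨⟨ho, ht⟩, hS⟩, hfix⟩, hcand⟩ := h
  have hSv : S.all (validB 24) = true := List.all_eq_true.mpr hS
  have ho' := ho
  rw [isOctad, Bool.and_eq_true, beq_iff_eq] at ho'
  obtain ⟨hoc, hop⟩ := ho'
  have hom : word o ∈ golayCode := (word_mem_iff (isCode_lt hoc)).mpr hoc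
  -- the image, pulled back by `σ`
  set xb : GolayPt → ZMod 2 := ((x ⟨word o, hom⟩ : ↥golayCode) : GolayPt → ZMod 2) with hxb
  set c : GolayPt → ZMod 2 := actW σ⁻¹ xb with hc
  have hcm : c ∈ golayCode := (H11.mem_M24_iff.mp (Subgroup.inv_mem _ hσ)) _ (x ⟨word o, hom⟩).2
  have hσc : actW σ c = xb := by
    funext p
    show xb ((σ⁻¹).symm (σ.symm p)) = xb p
    rw [show (σ⁻¹).symm = σ from rfl, Equiv.apply_symm_apply]
  -- its weight
  have hwt : octT (support₂ c).card = 8 := by
    obtain ⟨σ₀, -, he⟩ := horb ⟨word o, hom⟩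
    rw [hc, actW_support, Finset.card_smul_finset, hxb, he.octT_eq, actW_support,
      Finset.card_smul_finset, support_word, card_fin, hop]
    rfl
  obtain ⟨O, hO, hOc⟩ : ∃ O, fin O ∈ octads ∧ O < 2 ^ 24 ∧ Eqv c (word O) := by
    have hw' : (support₂ c).card = 8 ∨ (support₂ c).card = 16 := by
      have := hwt
      have hle : (support₂ c).card ≤ 24 := Finset.card_le_univ _
      simp only [octT] at this
      omega
    rcases hw' with hw | hw
    · refine ⟨mask (support₂ c), ?_, mask_lt _, Or.inl (word_support c).symm⟩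
      rw [fin_mask]
      exact ⟨⟨c, hcm, rfl⟩, hw⟩
    · have hc1 : c + (fun _ => (1 : ZMod 2)) ∈ golayCode :=
        Submodule.add_mem _ hcm (Submodule.subset_span (Or.inr rfl))
      refine ⟨mask (support₂ (c + fun _ => (1 : ZMod 2))), ?_, mask_lt _,
        Or.inr (by rw [word_support, add_assoc, one_add_one_w, add_zero])⟩
      rw [fin_mask]
      refine ⟨⟨_, hc1, rfl⟩, ?_⟩
      have : support₂ (c + fun _ => (1 : ZMod 2)) = (support₂ c)ᶜ := by
        ext p
        simp only [support₂, Finset.mem_filter, Finset.mem_univ, true_and, Finset.mem_compl,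
          Pi.add_apply]
        rcases (show ∀ z : ZMod 2, z = 0 ∨ z = 1 by decide) (c p) with h | h <;> rw [h] <;> decide
      rw [this, Finset.card_compl, hw]
      rfl
  obtain ⟨hOlt, hOc⟩ := hOc
  obtain ⟨O', hO'mem, hO'eq⟩ := List.mem_map.mp ((mem_octads_list _).mp hO)
  have hO'lt : O' < 2 ^ 24 := H11_octadList_lt O' hO'mem
  obtain rfl : O' = O := fin_inj hO'lt hOlt hO'eq
  -- the pattern
  have hpat : ((spanList prev).all fun s => octT (pop (O' ^^^ s)) == octT (pop (o ^^^ s))) = true := by
    refine List.all_eq_true.mpr fun s hs => ?_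
    obtain ⟨hsm, hse⟩ := agree_spanList x prev hag s hs
    obtain ⟨σ₀, -, he⟩ := horb ⟨word (o ^^^ s), by rw [word_xor]; exact Submodule.add_mem _ hom hsm⟩
    have heq : Eqv ((x ⟨word (o ^^^ s), by rw [word_xor]; exact Submodule.add_mem _ hom hsm⟩ :
        ↥golayCode) : GolayPt → ZMod 2) (actW σ (word (O' ^^^ s))) := by
      have e : (⟨word (o ^^^ s), by rw [word_xor]; exact Submodule.add_mem _ hom hsm⟩ : ↥golayCode) =
          ⟨word o, hom⟩ + ⟨word s, hsm⟩ := Subtype.ext (word_xor o s)
      rw [e, map_add, word_xor]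
      have h1 : Eqv xb (actW σ (word O')) := hσc ▸ hOc.act σ
      exact h1.add hse
    have := he.symm.trans heq
    have h2 := this.octT_eq
    rw [actW_support, Finset.card_smul_finset, actW_support, Finset.card_smul_finset, support_word,
      support_word, card_fin, card_fin] at h2
    rw [beq_iff_eq, h2]
  have hhas : t.has O' = true := by
    have := hcand O' hO'mem
    rwa [Bool.or_eq_true, hpat, Bool.not_true, or_iff_left (by simp)] at this
  obtain ⟨g, hg, hge⟩ := maskTree_reach hSv ht hhas
  have hgM : g ∈ M24 :=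
    grp_le_M24 hSv (List.all_eq_true.mpr fun a ha => (hfix a ha).1) hg
  have hgfix : ∀ b ∈ prev, g • fin b = fin b := fun b hb =>
    grp_le_stabilizer_fin hSv (List.all_eq_true.mpr fun a ha =>
      (hfix a ha).2 b hb) hg
  refine ⟨σ * g, Subgroup.mul_mem _ hσ hgM, fun b hb => ?_⟩
  rcases List.mem_cons.mp hb with hbo | hb
  · rw [hbo]
    refine ⟨hom, ?_⟩
    have hgw : actW g (word o) = word O' :=
      word_injective_support (by rw [actW_support, support_word, support_word, hge])
    show Eqv xb (actW σ (actW g (word o)))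
    rw [hgw, ← hσc]
    exact hOc.act σ
  · obtain ⟨hbm, hbe⟩ := hag b hb
    refine ⟨hbm, ?_⟩
    have hgw : actW g (word b) = word b :=
      word_injective_support (by rw [actW_support, support_word, hgfix b hb])
    show Eqv _ (actW σ (actW g (word b)))
    rw [hgw]
    exact hbe
where
  H11_octadList_lt : ∀ m ∈ H11.octadList, m < 2 ^ 24 := by
    intro m hm
    have h : (H11.octadList.all fun m => decide (m < 2 ^ 24)) = true := by decide +kernel
    simpa using List.all_eq_true.mp h m hm

end Cfsg.Agent.H13
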