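import Cfsg.Agent.H13.Data

/-!
A table of L₂(11) inside M₁₁ (machine generated).
-/

set_option autoImplicit false

namespace Cfsg.Agent.H13.Data

/-- The images of the two transvections. -/
def l2Gens : List PL := [([0, 9, 4, 13, 3, 10, 16, 14, 12, 18, 15, 17, 1, 8, 19, 11, 2, 7, 6, 20, 22, 5, 21, 23],
   [0, 12, 16, 4, 2, 21, 18, 17, 13, 1, 5, 15, 8, 3, 7, 10, 6, 11, 9, 14, 19, 22, 20, 23]), ([0, 4, 12, 8, 13, 10, 2, 19, 9, 16, 21, 17, 1, 3, 20, 7, 18, 22, 6, 14, 11, 15, 5, 23],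
   [0, 12, 6, 13, 1, 22, 18, 15, 3, 8, 5, 20, 2, 4, 19, 21, 9, 11, 16, 7, 14, 10, 17, 23])]

/-- Certificate of the generated group. -/
def l2Levels : List Level := [
  ⟨5, [(0, 0), (1, 0), (1, 1), (2, 0), (2, 1), (4, 0), (5, 0), (5, 1), (6, 1), (7, 1)], [(4, 1, 10), (0, 0, 3)]⟩,
  ⟨7, [(0, 1), (1, 0), (1, 1), (2, 1), (3, 0), (3, 1), (4, 0), (6, 0), (6, 1)], [(2, 1, 8), (9, 0, 9)]⟩,
  ⟨10, [(0, 0), (0, 1), (1, 0), (1, 1), (2, 0)], []⟩]

/-- Packed images of the upper unitriangular matrices. -/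
def l2Upper : List ℕ := [0xbdab49ca307b9ac5a928398a418820,
  0xbd4b6a18e25cd018be4c7414369120,
  0xb9555b41c48d1893acc1989ed40e40,
  0xba9e5a8a633d83274609a1168634c0,
  0xbbd6a2928d7552699c52b0e2c0a200,
  0xbae2f50ec899650a3886ab4e14b040,
  0xbc4eb7b6aca28c2b4c702a1c990480,
  0xb9dd15a0a1b3e04ad1a25327232460,
  0xbba678b149aac432d90478686849a0,
  0xbce8e385f22c48d555835a6d011900,
  0xbd2d37256651c687942d8caa224180]

/-- Packed images of the diagonal matrices (entry 0 unused). -/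
def l2Diag : List ℕ := [0xbdab49ca307b9ac5a928398a418820,
  0xbdab49ca307b9ac5a928398a418820,
  0xbc6859a1c4b2c2d79c50ac9461b120,
  0xbad47991f2758498d1a62c2a818580,
  0xbb8aa9c1668bd21b5584a20f21b440,
  0xbbcf599ac85c58271432512901a5a0,
  0xbbcf599ac85c58271432512901a5a0,
  0xbb8aa9c1668bd21b5584a20f21b440,
  0xbad47991f2758498d1a62c2a818580,
  0xbc6859a1c4b2c2d79c50ac9461b120,
  0xbdab49ca307b9ac5a928398a418820]

/-- Packed image of the Weyl element. -/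
def l2Weyl : ℕ := 0xbbea799970b39a189444a49481a580

end Cfsg.Agent.H13.Data
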