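import Cfsg.Agent.H13.Data

/-!
The stabiliser of a dodecad and three of its points: data (machine generated).
-/

set_option autoImplicit false

namespace Cfsg.Agent.H13.Data

/-- Generators of the three-point stabiliser (order 72). -/
def g9 : List PL := [([0, 1, 2, 4, 8, 11, 9, 20, 13, 18, 14, 5, 6, 3, 17, 22, 16, 21, 12, 23, 7, 10, 19, 15],
   [0, 1, 2, 13, 3, 11, 12, 20, 4, 6, 21, 5, 18, 8, 10, 23, 16, 14, 9, 22, 7, 17, 15, 19]), ([0, 1, 2, 8, 16, 10, 4, 15, 13, 6, 19, 20, 3, 12, 22, 7, 9, 5, 18, 17, 23, 11, 14, 21],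
   [0, 1, 2, 12, 6, 17, 9, 15, 3, 16, 5, 21, 13, 8, 22, 7, 4, 19, 18, 10, 11, 23, 14, 20])]

/-- Its certificate. -/
def g9Levels : List Level := [
  ⟨3, [(0, 0), (0, 1), (1, 1), (2, 0), (3, 1), (4, 1), (5, 0), (5, 1)], [(5, 0, 8), (7, 1, 7)]⟩,
  ⟨4, [(0, 0), (0, 1), (1, 0), (1, 1), (2, 0), (3, 0), (3, 1)], []⟩]

/-- Orbit tree outside the dodecad. -/
def g9OutLevel : Level := ⟨23, [(0, 0), (0, 1), (1, 0), (1, 1), (2, 0), (2, 1), (3, 0), (3, 1), (4, 0), (6, 0), (7, 1)], [(10, 1, 11), (8, 0, 5)]⟩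

/-- Generators of its Sylow 3-subgroup. -/
def p9 : List PL := [([0, 1, 2, 4, 12, 15, 16, 7, 9, 13, 10, 22, 3, 8, 21, 19, 18, 17, 6, 5, 14, 20, 23, 11],
   [0, 1, 2, 12, 3, 19, 18, 7, 13, 8, 10, 23, 4, 9, 20, 5, 6, 17, 16, 15, 21, 14, 11, 22]), ([0, 1, 2, 8, 9, 5, 12, 17, 16, 18, 7, 23, 13, 6, 21, 15, 3, 10, 4, 19, 14, 20, 11, 22],
   [0, 1, 2, 16, 18, 5, 13, 10, 3, 4, 17, 22, 6, 12, 20, 15, 8, 7, 9, 19, 21, 14, 23, 11])]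

/-- Its certificate. -/
def p9Levels : List Level := [
  ⟨3, [(0, 0), (0, 1), (1, 0), (1, 1), (2, 1), (3, 1), (4, 1), (6, 1)], []⟩]

/-- Generators of a quaternion subgroup. -/
def q8 : List PL := [([0, 1, 2, 3, 6, 14, 12, 22, 13, 4, 11, 7, 9, 16, 5, 21, 18, 23, 8, 20, 15, 19, 10, 17],
   [0, 1, 2, 3, 9, 14, 4, 11, 18, 12, 22, 10, 6, 8, 5, 20, 13, 23, 16, 21, 19, 15, 7, 17]), ([0, 1, 2, 3, 8, 17, 18, 15, 12, 13, 19, 21, 16, 6, 23, 10, 4, 5, 9, 7, 11, 22, 20, 14],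
   [0, 1, 2, 3, 16, 17, 13, 19, 4, 18, 15, 20, 8, 9, 23, 7, 12, 5, 6, 10, 22, 11, 21, 14])]

/-- Its certificate. -/
def q8Levels : List Level := [
  ⟨3, [], [(0, 1, 0), (0, 0, 0)]⟩,
  ⟨4, [(0, 0), (0, 1), (1, 0), (1, 1), (2, 0), (3, 0), (3, 1)], []⟩]

end Cfsg.Agent.H13.Data
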