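import Cfsg.Agent.H13.Families
import Cfsg.Agent.H13.DataDod

/-!
The suborbits of M₂₃ on the 1288 dodecads through a point.
-/

set_option autoImplicit false

namespace Cfsg.Agent.H13

open MulAction Cfsg.Agent.H12 Data
open scoped Pointwise

/-- The masks of the dodecads through `none`. -/
def dodList : List ℕ := H11.dodecadList.filter fun m => m.testBit 23

theorem dodecadList_spec :
    dodecads = ((H11.dodecadList.map fin).toFinset : Set (Finset GolayPt)) ∧
      (H11.dodecadList.map fin).Nodup := by
  have h : dodecads = ((H11.dodecadList.map fin).toFinset : Set (Finset GolayPt)) := by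
    ext s; simp [H11.mem_dodecads_iff, H11.dodecadMasks_eq]
  refine ⟨h, List.dedup_eq_self.1 ((List.dedup_sublist _).eq_of_length ?_)⟩
  have h1 := H9.dodecads_ncard
  rw [h, Set.ncard_coe_finset, List.card_toFinset] at h1
  rw [h1, List.length_map]
  decide +kernel

theorem dodList_spec : {x : Finset GolayPt | x ∈ dodecads ∧ (none : GolayPt) ∈ x} =
      ((dodList.map fin).toFinset : Set (Finset GolayPt)) ∧ (dodList.map fin).Nodup := by
  refine ⟨?_, (List.filter_sublist.map fin).nodup dodecadList_spec.2⟩
  ext x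
  rw [Set.mem_ofPred_eq, dodecadList_spec.1]
  simp only [List.coe_toFinset, List.mem_map, Set.mem_ofPred_eq, dodList, List.mem_filter]
  constructor
  · rintro ⟨⟨m, hm, rfl⟩, hx⟩; exact ⟨m, ⟨hm, (none_mem_fin m).mp hx⟩, rfl⟩
  · rintro ⟨m, ⟨hm, hm'⟩, rfl⟩; exact ⟨⟨m, hm, rfl⟩, (none_mem_fin m).mpr hm'⟩

theorem dod_rank : RankSpec (grp g23) {x | x ∈ dodecads ∧ (none : GolayPt) ∈ x}
    (fun k => (classList dodList dodBase k).length) :=
  rank_spec (K := g23) (H := dodStab) (t := dodTree) (cls := dodClasses) (by decide +kernel)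
    (grp_le_grp m23Levels g23_valid (by decide +kernel) m23_check (by decide +kernel))
    dodList_spec.1 dodList_spec.2
    fun g hg x => and_congr (smul_mem_dodecads (g23_fix hg).1) (smul_mem_fixed (g23_fix hg).2 x)

end Cfsg.Agent.H13
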