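import Cfsg.Agent.H13.Families
import Cfsg.Agent.H13.DataDuad

/-!
The suborbits of M₂₂ on the 231 duads.
-/

set_option autoImplicit false

namespace Cfsg.Agent.H13

open MulAction Cfsg.Agent.H12 Data
open scoped Pointwise

/-- The duad masks avoiding `none` and `some 0`. -/
def duadList : List ℕ :=
  (List.range' 1 22).flatMap fun a =>
    (List.range' (a + 1) (22 - a)).map fun b => 1 <<< a ||| 1 <<< b

/-- The base duad and `m` lie in a common hexad. -/
def duadBlock (m : ℕ) : Bool :=
  hexList.any fun o => o &&& (duadBase ||| m) == (duadBase ||| m)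

/-- A duad avoiding `none` and `some 0`. -/
def IsDuad (t : Finset GolayPt) : Prop :=
  t.card = 2 ∧ (none : GolayPt) ∉ t ∧ (some 0 : GolayPt) ∉ t

theorem duadList_lt : ∀ m ∈ duadList, m < 2 ^ 24 := by decide +kernel

theorem duadList_nodup : (duadList.map fin).Nodup :=
  List.Nodup.map_on (fun a ha b hb h => fin_inj (duadList_lt a ha) (duadList_lt b hb) h)
    (by decide +kernel)

theorem isDuad_iff (t : Finset GolayPt) : IsDuad t ↔ ∃ m ∈ duadList, fin m = t := by
  constructor
  · rintro ⟨hc, h1, h2⟩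
    obtain ⟨a, b, hab, rfl⟩ := Finset.card_eq_two.mp hc
    have hlist : ∀ i j : Fin 24, i ≠ j → (i : ℕ) ≠ 23 → (j : ℕ) ≠ 23 → (i : ℕ) ≠ 0 → (j : ℕ) ≠ 0 →
        (1 <<< (i : ℕ) ||| 1 <<< (j : ℕ)) ∈ duadList := by decide +kernel
    have hne : ∀ z ∈ ({a, b} : Finset GolayPt), idx z ≠ 23 ∧ idx z ≠ 0 := fun z hz =>
      ⟨fun e => h1 (((pt_idx z).symm.trans ((congrArg pt e).trans pt_none)) ▸ hz),
        fun e => h2 (((pt_idx z).symm.trans ((congrArg pt e).trans pt_zero)) ▸ hz)⟩
    refine ⟨_, hlist ⟨idx a, idx_lt a⟩ ⟨idx b, idx_lt b⟩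
      (fun e => hab (idx_injective (congrArg Fin.val e)))
      (hne a (by simp)).1 (hne b (by simp)).1 (hne a (by simp)).2 (hne b (by simp)).2, ?_⟩
    rw [fin_lor, fin_shiftLeft_one (idx_lt a), fin_shiftLeft_one (idx_lt b), pt_idx, pt_idx,
      Finset.insert_eq]
  · rintro ⟨m, hm, rfl⟩
    have h : ∀ m ∈ duadList, pop m = 2 ∧ m.testBit 23 = false ∧ m.testBit 0 = false := by
      decide +kernel
    obtain ⟨h1, h2, h3⟩ := h m hm
    exact ⟨by rw [card_fin, h1], by rw [none_mem_fin, h2]; simp, by rw [zero_mem_fin, h3]; simp⟩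

/-- Both duads lie in an octad through `none` and `some 0`. -/
def InBlock (s t : Finset GolayPt) : Prop :=
  ∃ o ∈ octads, (none : GolayPt) ∈ o ∧ (some 0 : GolayPt) ∈ o ∧ s ∪ t ⊆ o

theorem inBlock_base {m : ℕ} (hm : m < 2 ^ 24) :
    InBlock (fin duadBase) (fin m) ↔ duadBlock m = true := by
  have hb : duadBase ||| m < 2 ^ 24 := Nat.or_lt_two_pow (by norm_num [duadBase]) hm
  rw [duadBlock, List.any_eq_true, InBlock, ← fin_lor]
  constructor
  · rintro ⟨o, ho, h1, h2, h3⟩
    obtain ⟨k, hk, rfl⟩ := List.mem_map.mp ((mem_octads_list o).mp ho)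
    refine ⟨k, List.mem_filter.mpr ⟨hk, ?_⟩, ?_⟩
    · rw [(none_mem_fin k).mp h1, (zero_mem_fin k).mp h2]; rfl
    · rw [beq_iff_eq, Nat.land_comm, ← subset_fin_iff hb]; exact h3
  · rintro ⟨k, hk, hk'⟩
    obtain ⟨hk, hk''⟩ := List.mem_filter.mp hk
    rw [Bool.and_eq_true] at hk''
    refine ⟨fin k, (mem_octads_list _).mpr (List.mem_map_of_mem hk),
      (none_mem_fin k).mpr hk''.1, (zero_mem_fin k).mpr hk''.2, ?_⟩
    rw [beq_iff_eq, Nat.land_comm] at hk'
    exact (subset_fin_iff hb).mpr hk'

/-- The duads in the class with the given intersection size and block property. -/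
def duadClass (k : ℕ) (b : Bool) : List ℕ :=
  duadList.filter fun m => pop (duadBase &&& m) == k && duadBlock m == b

/-- The certificate. -/
noncomputable def duadCheck : Bool :=
  duadStab.all (validB 24) && (duadStab.all fun a => imgMask (pack a.1) duadBase == duadBase) &&
    maskTree g22 duadBase duadTree && allList duadList (fun a => duadTree.has a) &&
    allList duadList (fun m =>
      (duadClasses.map fun c => (c.1, c.2.1)).contains (pop (duadBase &&& m), duadBlock m)) &&
    duadClasses.all (fun c => maskTree duadStab c.2.2.1 c.2.2.2 &&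
      allList (duadClass c.1 c.2.1) (fun a => c.2.2.2.has a))

theorem duadCheck_eq : duadCheck = true := by decide +kernel

theorem duad_base_map {g : Equiv.Perm GolayPt} (hg : g ∈ grp g22) (t : Finset GolayPt) :
    (IsDuad (g • t) ↔ IsDuad t) ∧ ∀ s, (InBlock (g • s) (g • t) ↔ InBlock s t) := by
  obtain ⟨hm, h1, h2⟩ := g22_fix hg
  refine ⟨?_, fun s => ?_⟩
  · rw [IsDuad, IsDuad, Finset.card_smul_finset, smul_mem_fixed h1, smul_mem_fixed h2]
  · constructor
    · rintro ⟨o, ho, ha, hb, hsub⟩
      refine ⟨g⁻¹ • o, (smul_mem_octads (Subgroup.inv_mem _ hm)).mpr ho,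
        (mem_inv_smul h1 o).mpr ha, (mem_inv_smul h2 o).mpr hb, ?_⟩
      rw [← Finset.smul_finset_subset_smul_finset_iff (a := g), smul_inv_smul,
        Finset.smul_finset_union]
      exact hsub
    · rintro ⟨o, ho, ha, hb, hsub⟩
      refine ⟨g • o, (smul_mem_octads hm).mpr ho, (smul_mem_fixed h1 o).mpr ha,
        (smul_mem_fixed h2 o).mpr hb, ?_⟩
      rw [← Finset.smul_finset_union, Finset.smul_finset_subset_smul_finset_iff]
      exact hsub

theorem ncard_duadClass (b : Bool) :
    {t : Finset GolayPt | IsDuad t ∧ Disjoint (fin duadBase) t ∧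
      (InBlock (fin duadBase) t ↔ b = true)}.ncard = (duadClass 0 b).length := by
  have e : {t : Finset GolayPt | IsDuad t ∧ Disjoint (fin duadBase) t ∧
      (InBlock (fin duadBase) t ↔ b = true)} =
      (((duadClass 0 b).map fin).toFinset : Set (Finset GolayPt)) := by
    ext t
    simp only [List.coe_toFinset, List.mem_map, Set.mem_ofPred_eq, duadClass, List.mem_filter,
      Bool.and_eq_true, beq_iff_eq, isDuad_iff]
    constructor
    · rintro ⟨⟨m, hm, rfl⟩, hd, hb⟩
      refine ⟨m, ⟨hm, ?_, ?_⟩, rfl⟩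
      · rw [← card_fin, fin_land, Finset.disjoint_iff_inter_eq_empty.mp hd, Finset.card_empty]
      · rw [inBlock_base (duadList_lt m hm)] at hb
        exact Bool.eq_iff_iff.mpr hb
    · rintro ⟨m, ⟨hm, h0, hb⟩, rfl⟩
      refine ⟨⟨m, hm, rfl⟩, ?_, by rw [inBlock_base (duadList_lt m hm), hb]⟩
      rw [Finset.disjoint_iff_inter_eq_empty, ← fin_land, ← Finset.card_eq_zero, card_fin, h0]
  rw [e, Set.ncard_coe_finset, duadClass, List.toFinset_card_of_nodup
    ((List.filter_sublist (p := fun m => pop (duadBase &&& m) == 0 && duadBlock m == b)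
      |>.map fin).nodup duadList_nodup), List.length_map]

theorem duad_rank {s : Finset GolayPt} (hs : IsDuad s) :
    ({t : Finset GolayPt | IsDuad t ∧ Disjoint s t ∧ InBlock s t}.ncard = 30 ∧
      {t : Finset GolayPt | IsDuad t ∧ Disjoint s t ∧ ¬ InBlock s t}.ncard = 160) ∧
    ∀ t t', IsDuad t → IsDuad t' → (s ∩ t).card = (s ∩ t').card →
      (InBlock s t ↔ InBlock s t') →
      ∃ g ∈ grp g22, g • s = s ∧ g • t = t' := by
  have hchk := duadCheck_eq
  simp only [duadCheck, Bool.and_eq_true] at hchk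
  obtain ⟨⟨⟨⟨⟨hH, hfix⟩, ht⟩, hcov⟩, hks⟩, hcls⟩ := hchk
  have hHK : grp duadStab ≤ grp g22 :=
    grp_le_grp m22Levels g22_valid hH m22_check (by decide +kernel)
  have hbase : duadBase ∈ duadList := by decide +kernel
  obtain ⟨a0, ha0, rfl⟩ := (isDuad_iff s).mp hs
  obtain ⟨c, hc, hcs⟩ := exists_map_of_cover g22_valid ht hcov hbase ha0
  rw [← hcs]
  have hc' := Subgroup.inv_mem _ hc
  constructor
  · have e : ∀ P : Prop → Prop, {t : Finset GolayPt | IsDuad t ∧ Disjoint (c • fin duadBase) t ∧
        P (InBlock (c • fin duadBase) t)} =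
        c • {t : Finset GolayPt | IsDuad t ∧ Disjoint (fin duadBase) t ∧
          P (InBlock (fin duadBase) t)} := by
      intro P
      ext t
      rw [Set.mem_smul_set_iff_inv_smul_mem]
      simp only [Set.mem_ofPred_eq, (duad_base_map hc' t).1]
      rw [← (duad_base_map hc' t).2 (c • fin duadBase), inv_smul_smul]
      refine and_congr_right fun _ => and_congr_left fun _ => ?_
      rw [← Finset.card_eq_zero.trans Finset.disjoint_iff_inter_eq_empty.symm,
        ← Finset.card_eq_zero.trans Finset.disjoint_iff_inter_eq_empty.symm,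
        ← Finset.card_smul_finset c⁻¹, Finset.smul_finset_inter, inv_smul_smul]
    constructor
    · rw [e fun P => P, Set.ncard_smul_set]
      simpa using (ncard_duadClass true).trans
        (by decide +kernel : (duadClass 0 true).length = 30)
    · rw [e fun P => ¬ P, Set.ncard_smul_set]
      simpa using (ncard_duadClass false).trans
        (by decide +kernel : (duadClass 0 false).length = 160)
  · intro t t' htd htd' hk hb
    obtain ⟨a, ha, hae⟩ := (isDuad_iff _).mp ((duad_base_map hc' t).1.mpr htd)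
    obtain ⟨b, hb', hbe⟩ := (isDuad_iff _).mp ((duad_base_map hc' t').1.mpr htd')
    have hab : pop (duadBase &&& a) = pop (duadBase &&& b) := by
      rw [← card_fin, ← card_fin, fin_land, fin_land, hae, hbe]
      rw [← Finset.card_smul_finset c⁻¹, ← Finset.card_smul_finset c⁻¹ (c • fin duadBase ∩ t'),
        Finset.smul_finset_inter, Finset.smul_finset_inter, inv_smul_smul] at hk
      exact hk
    have habk : duadBlock a = duadBlock b := by
      apply Bool.eq_iff_iff.mpr
      rw [← inBlock_base (duadList_lt a ha), ← inBlock_base (duadList_lt b hb'), hae, hbe,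
        ← inv_smul_smul c (fin duadBase), (duad_base_map hc' t).2, (duad_base_map hc' t').2]
      exact hb
    have hka := allList_spec hks a ha
    rw [List.contains_iff_mem] at hka
    obtain ⟨k0, hk0, hkk⟩ := List.mem_map.mp hka
    obtain ⟨hk1, hk2⟩ := Prod.mk.injEq _ _ _ _ ▸ hkk
    have hc0 := List.all_eq_true.mp hcls k0 hk0
    rw [Bool.and_eq_true] at hc0
    obtain ⟨k, hkH, hkab⟩ := exists_map_of_cover hH hc0.1 hc0.2
      (a := a) (b := b) (by simp [duadClass, ha, hk1, hk2])
      (by simp [duadClass, hb', hk1, hk2, hab, habk])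
    refine ⟨c * k * c⁻¹, Subgroup.mul_mem _ (Subgroup.mul_mem _ hc (hHK hkH)) hc', ?_, ?_⟩
    · rw [mul_smul, mul_smul, inv_smul_smul,
        mem_stabilizer_iff.mp (grp_le_stabilizer_fin hH hfix hkH)]
    · rw [mul_smul, mul_smul, ← hae, hkab, hbe, smul_inv_smul]

end Cfsg.Agent.H13
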