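import Cfsg.Agent.H13.RankTool

/-!
Orbit trees on small families of point sets, encoded as numbers.
-/

set_option autoImplicit false

namespace Cfsg.Agent.H13

open MulAction Cfsg.Agent.H12
open scoped Pointwise

/-- Decode four masks packed 24 bits each. -/
def dec4 (c : ℕ) : List ℕ :=
  [c &&& 0xFFFFFF, (c >>> 24) &&& 0xFFFFFF, (c >>> 48) &&& 0xFFFFFF, (c >>> 72) &&& 0xFFFFFF]

/-- Two lists have the same members. -/
def sameList (a b : List ℕ) : Bool := a.all b.contains && b.all a.contains

/-- The family of a code. -/
def fam4 (c : ℕ) : Finset (Finset GolayPt) := fins (dec4 c)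

theorem fins_eq_of_sameList {a b : List ℕ} (h : sameList a b = true) : fins a = fins b := by
  simp only [sameList, Bool.and_eq_true, List.all_eq_true, List.contains_iff_mem] at h
  exact fins_eq_of_subset h.1 h.2

/-- The tree is an orbit tree of the family `root` under the generators. -/
def famTree (S : List PL) (root : ℕ) (t : MTree) : Bool :=
  t.allNodes fun m p k d =>
    if d = 0 then Nat.beq m root
    else decide (k < S.length) &&
      (match t.find p with
        | none => false
        | some q => Nat.blt q.2.2 d &&
            sameList ((dec4 p).map (imgMask (pack (S.getD k (oneP 24)).1))) (dec4 m))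

theorem getD_mem_grp_fins {S : List PL} (hS : S.all (validB 24) = true) {k : ℕ}
    (hk : k < S.length) : ∃ g ∈ grp S, ∀ L : List ℕ,
      g • fins L = fins (L.map (imgMask (pack (S.getD k (oneP 24)).1))) := by
  have hmem : S.getD k (oneP 24) ∈ S := by
    rw [List.getD_eq_getElem?_getD, List.getElem?_eq_getElem hk]
    exact List.getElem_mem hk
  obtain ⟨σ, hσ, he⟩ := valid_genGroup (valid_all hS) _ hmem
  refine ⟨toFin.symm σ, by rw [mem_grp, toFin.apply_symm_apply]; exact hσ, fun L => ?_⟩
  rw [he, ← (permOf_pack_img σ).2]
  exact smul_fins (permOf_pack_img σ).1 L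

theorem famTree_reach {S : List PL} (hS : S.all (validB 24) = true) {t : MTree} {root : ℕ}
    (h : famTree S root t = true) {a : ℕ} (ha : t.has a = true) :
    ∃ g ∈ grp S, g • fam4 root = fam4 a := by
  obtain ⟨⟨p, k, d⟩, hf⟩ := Option.isSome_iff_exists.mp ha
  clear ha
  induction d using Nat.strong_induction_on generalizing a p k with
  | _ d ih =>
    have h' := MTree.allNodes_find h hf
    by_cases hd : d = 0
    · subst hd
      rw [if_pos rfl, Nat.beq_eq] at h'
      exact ⟨1, Subgroup.one_mem _, by rw [one_smul, h']⟩
    · rw [if_neg hd, Bool.and_eq_true, decide_eq_true_eq] at h'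
      obtain ⟨hk, hm⟩ := h'
      split at hm
      · simp at hm
      · rename_i q hq
        rw [Bool.and_eq_true, Nat.blt_eq] at hm
        obtain ⟨g, hg, hge⟩ := ih q.2.2 hm.1 q.1 q.2.1 (a := p) hq
        obtain ⟨w, hw, hwe⟩ := getD_mem_grp_fins hS hk
        refine ⟨w * g, Subgroup.mul_mem _ hw hg, ?_⟩
        rw [mul_smul, hge, fam4, hwe]
        exact fins_eq_of_sameList hm.2

/-- A list of codes is closed under the generators. -/
def famClosed (S : List PL) (L : List ℕ) : Bool :=
  S.all fun s => L.all fun a => L.any fun b =>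
    sameList ((dec4 a).map (imgMask (pack s.1))) (dec4 b)

/-- A closed list gives an invariant set of families. -/
theorem famClosed_invariant {S : List PL} (hS : S.all (validB 24) = true) {L : List ℕ}
    (h : famClosed S L = true) {g : Equiv.Perm GolayPt} (hg : g ∈ grp S) :
    g • (((L.map fam4).toFinset : Finset _) : Set (Finset (Finset GolayPt))) =
      ((L.map fam4).toFinset : Finset _) := by
  have hle : grp S ≤ stabilizer (Equiv.Perm GolayPt)
      (((L.map fam4).toFinset : Finset _) : Set (Finset (Finset GolayPt))) := by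
    apply grp_le hS
    intro a ha g hg
    rw [mem_stabilizer_iff]
    refine Set.eq_of_subset_of_ncard_le ?_ (by rw [Set.ncard_smul_set]) (Set.toFinite _)
    rintro _ ⟨x, hx, rfl⟩
    simp only [List.coe_toFinset, List.mem_map, Set.mem_ofPred_eq] at hx ⊢
    obtain ⟨c, hc, rfl⟩ := hx
    obtain ⟨b, hb, he⟩ := List.any_eq_true.mp (List.all_eq_true.mp (List.all_eq_true.mp h a ha) c hc)
    refine ⟨b, hb, ?_⟩
    rw [fam4, fam4, ← fins_eq_of_sameList he, ← hg]
    have := smul_fins (permOf_pack_img (toFin g)).1 (dec4 c)
    rw [(permOf_pack_img (toFin g)).2, toFin.symm_apply_apply] at this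
    exact this.symm
  exact hle hg

end Cfsg.Agent.H13
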