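import Cfsg.Agent.H13.Families
import Cfsg.Agent.H10.MathieuIndex
import Cfsg.Agent.H12.DuadIndex
import Cfsg.Agent.H12.ClassReps

/-!
Subgroups of order 40320 fixing a point stabilise a duad or an octad through the point.
-/

set_option autoImplicit false

namespace Cfsg.Agent.H13

open MulAction
open scoped Pointwise

/-- An element of `M24` fixing nine points is trivial. -/
theorem eq_one_of_fix_nine {g : Equiv.Perm GolayPt} (hg : g ∈ M24) {s : Finset GolayPt}
    (hs : 9 ≤ s.card) (hfix : ∀ x ∈ s, g x = x) : g = 1 := by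
  classical
  have h6 : g ^ 6 = 1 := H12.pow_six_of_five_fixed hg
    ((show 5 ≤ s.card by omega).trans (Finset.card_le_card fun x hx =>
      Finset.mem_filter.mpr ⟨Finset.mem_univ _, hfix x hx⟩))
  have hpow : ∀ n, ∀ x ∈ s, (g ^ n) x = x := fun n x hx => by
    induction n with
    | zero => rfl
    | succ n ih => rw [pow_succ, Equiv.Perm.mul_apply, hfix x hx, ih]
  have h3 : g ^ 3 = 1 := H10.eq_one_of_sq_fix_nine (Subgroup.pow_mem _ hg 3)
    (by rw [← pow_add]; exact h6) hs (hpow 3)
  by_contra hne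
  have ho : orderOf g = 3 := orderOf_eq_prime h3 hne
  have hle : s.card ≤ (H12.fixPts g).card := Finset.card_le_card fun x hx =>
    Finset.mem_filter.mpr ⟨Finset.mem_univ _, hfix x hx⟩
  rcases H12.order_three_cases hg ho with ⟨h, -⟩ | ⟨h, -⟩ <;> omega

/-- An involution of `M24` with a fixed point fixes exactly an octad. -/
theorem fixPts_octad {g : Equiv.Perm GolayPt} (hg : g ∈ M24) (h2 : orderOf g = 2) {x : GolayPt}
    (hx : g x = x) : H12.fixPts g ∈ octads := by
  rcases H12.involution_cases hg h2 with ⟨h, -⟩ | ⟨h, -⟩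
  · exact h
  · have : x ∈ H12.fixPts g := Finset.mem_filter.mpr ⟨Finset.mem_univ _, hx⟩
    rw [h] at this
    simp at this

variable {K : Subgroup (Equiv.Perm GolayPt)} {x : GolayPt}

/-- The restriction to an invariant set. -/
def restrictHom (O : Finset GolayPt) (hO : ∀ h ∈ K, ∀ v, h v ∈ O ↔ v ∈ O) :
    K →* Equiv.Perm {v // v ∈ O} :=
  MonoidHom.mk' (fun h => (h : Equiv.Perm GolayPt).subtypePerm (hO h h.2))
    fun g g' => by ext v; rfl

theorem fix_of_restrictHom {O : Finset GolayPt} {hO : ∀ h ∈ K, ∀ v, h v ∈ O ↔ v ∈ O} {k : K}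
    (h : restrictHom O hO k = 1) : ∀ v ∈ O, (k : Equiv.Perm GolayPt) v = v := fun v hv =>
  congrArg Subtype.val (DFunLike.congr_fun h (⟨v, hv⟩ : {v // v ∈ O}))

/-- An invariant set of seven points completes `x` to an octad. -/
theorem octad_of_seven (hK : K ≤ M24) (hx : ∀ h ∈ K, h x = x) (hc : Nat.card K = 40320)
    {R : Finset GolayPt} (hR : ∀ h ∈ K, ∀ v, h v ∈ R ↔ v ∈ R) (h7 : R.card = 7) (hxR : x ∉ R) :
    insert x R ∈ octads := by
  classical
  haveI : Fact (Nat.Prime 2) := ⟨by norm_num⟩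
  let f := restrictHom R hR
  have hi := Subgroup.card_mul_index f.ker
  have hdvd : f.ker.index ∣ 5040 := by
    rw [Subgroup.index_ker]
    refine (Subgroup.card_subgroup_dvd_card f.range).trans ?_
    rw [Nat.card_perm, Nat.card_eq_fintype_card, Fintype.card_coe, h7]
    decide
  have h2 : 2 ∣ Nat.card f.ker := by
    obtain ⟨k, hk⟩ := hdvd
    rw [hc] at hi
    have hpos : 0 < f.ker.index := by
      rcases Nat.eq_zero_or_pos f.ker.index with e | e
      · rw [e, mul_zero] at hi; cases hi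
      · exact e
    refine ⟨4 * k, Nat.eq_of_mul_eq_mul_right hpos ?_⟩
    rw [hi]
    calc 40320 = 8 * 5040 := by norm_num
      _ = 8 * (f.ker.index * k) := by rw [← hk]
      _ = 2 * (4 * k) * f.ker.index := by ring
  obtain ⟨z, hz⟩ := exists_prime_orderOf_dvd_card' (G := f.ker) 2 h2
  have ho : orderOf ((z : K) : Equiv.Perm GolayPt) = 2 := by
    rw [Subgroup.orderOf_coe, Subgroup.orderOf_coe, hz]
  have hoct := fixPts_octad (hK (z : K).2) ho (hx _ (z : K).2)
  have heq : insert x R = H12.fixPts ((z : K) : Equiv.Perm GolayPt) := by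
    refine Finset.eq_of_subset_of_card_le (fun v hv => Finset.mem_filter.mpr
      ⟨Finset.mem_univ _, ?_⟩) ?_
    · rcases Finset.mem_insert.mp hv with rfl | hv
      · exact hx _ (z : K).2
      · exact fix_of_restrictHom (MonoidHom.mem_ker.mp z.2) v hv
    · rw [Finset.card_insert_of_notMem hxR, h7]
      exact hoct.2.le
  rw [heq]; exact hoct

/-- There is no invariant set of eight points off `x`. -/
theorem no_invariant_eight (hK : K ≤ M24) (hx : ∀ h ∈ K, h x = x) (hc : Nat.card K = 40320)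
    {O : Finset GolayPt} (hO : ∀ h ∈ K, ∀ v, h v ∈ O ↔ v ∈ O) (h8 : O.card = 8) (hxO : x ∉ O) :
    False := by
  classical
  let f := restrictHom O hO
  have hinj : Function.Injective f := by
    rw [injective_iff_map_eq_one]
    intro k hk
    refine Subtype.ext (eq_one_of_fix_nine (hK k.2) (s := insert x O) ?_ ?_)
    · rw [Finset.card_insert_of_notMem hxO, h8]
    · intro v hv
      rcases Finset.mem_insert.mp hv with rfl | hv
      · exact hx _ k.2
      · exact fix_of_restrictHom hk v hv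
  have hb := (Nat.bijective_iff_injective_and_card f).mpr ⟨hinj, by
    rw [hc, Nat.card_perm, Nat.card_eq_fintype_card, Fintype.card_coe, h8]; rfl⟩
  obtain ⟨L, hL⟩ : ∃ L : List {v // v ∈ O}, L.Nodup ∧ 4 ≤ L.length :=
    ⟨(Finset.univ : Finset {v // v ∈ O}).toList, Finset.nodup_toList _, by
      rw [Finset.length_toList, Finset.card_univ, Fintype.card_coe, h8]; norm_num⟩
  obtain ⟨a, b, c, d, rest, rfl⟩ : ∃ a b c d rest, L = a :: b :: c :: d :: rest := by
    match L, hL.2 with
    | a :: b :: c :: d :: rest, _ => exact ⟨a, b, c, d, rest, rfl⟩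
  have hnd := hL.1
  simp only [List.nodup_cons, List.mem_cons, not_or] at hnd
  obtain ⟨⟨hab, hac, had, -⟩, ⟨hbc, hbd, -⟩, ⟨hcd, -⟩, -⟩ := hnd
  have key : ∀ i j : {v // v ∈ O}, i ≠ j → ∃ E ∈ octads, x ∈ E ∧
      ∀ v ∈ O, v ≠ i.1 → v ≠ j.1 → v ∈ E := by
    intro i j hij
    obtain ⟨t, ht⟩ := hb.2 (Equiv.swap i j)
    haveI : Fact (Nat.Prime 2) := ⟨by norm_num⟩
    have ho : orderOf ((t : K) : Equiv.Perm GolayPt) = 2 := by
      rw [Subgroup.orderOf_coe]
      refine orderOf_eq_prime (hinj ?_) (fun h => ?_)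
      · rw [map_pow, ht, map_one, pow_two, Equiv.swap_mul_self]
      · rw [h, map_one] at ht
        exact hij (Equiv.swap_eq_one_iff.mp ht.symm)
    refine ⟨_, fixPts_octad (hK t.2) ho (hx _ t.2),
      Finset.mem_filter.mpr ⟨Finset.mem_univ _, hx _ t.2⟩, fun v hv hvi hvj => ?_⟩
    refine Finset.mem_filter.mpr ⟨Finset.mem_univ _, ?_⟩
    have := congrArg Subtype.val (DFunLike.congr_fun ht (⟨v, hv⟩ : {v // v ∈ O}))
    rw [Equiv.swap_apply_of_ne_of_ne (fun h => hvi (congrArg Subtype.val h))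
      (fun h => hvj (congrArg Subtype.val h))] at this
    exact this
  obtain ⟨E, hE, hxE, hE'⟩ := key a b hab
  obtain ⟨F, hF, hxF, hF'⟩ := key c d hcd
  have heq : E = F := by
    refine H11.octad_eq_of_five hE hF ?_
    have hsub : insert x (O \ {a.1, b.1, c.1, d.1}) ⊆ E ∩ F := by
      intro v hv
      rcases Finset.mem_insert.mp hv with rfl | hv
      · exact Finset.mem_inter.mpr ⟨hxE, hxF⟩
      · simp only [Finset.mem_sdiff, Finset.mem_insert, Finset.mem_singleton, not_or] at hv
        exact Finset.mem_inter.mpr ⟨hE' v hv.1 hv.2.1 hv.2.2.1, hF' v hv.1 hv.2.2.2.1 hv.2.2.2.2⟩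
    have h4 : ({a.1, b.1, c.1, d.1} : Finset GolayPt).card ≤ 4 := Finset.card_le_four
    have h1 := Finset.le_card_sdiff ({a.1, b.1, c.1, d.1} : Finset GolayPt) O
    have h2 := Finset.card_le_card hsub
    rw [Finset.card_insert_of_notMem (fun h => hxO (Finset.mem_sdiff.mp h).1)] at h2
    omega
  have hsub : insert x O ⊆ E := by
    intro v hv
    rcases Finset.mem_insert.mp hv with rfl | hv
    · exact hxE
    · by_cases h1 : v = a.1 ∨ v = b.1
      · rw [heq]
        rcases h1 with rfl | rfl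
        · exact hF' _ hv (fun h => hac (Subtype.ext h)) (fun h => had (Subtype.ext h))
        · exact hF' _ hv (fun h => hbc (Subtype.ext h)) (fun h => hbd (Subtype.ext h))
      · simp only [not_or] at h1
        exact hE' v hv h1.1 h1.2
  have := Finset.card_le_card hsub
  rw [Finset.card_insert_of_notMem hxO, h8, hE.2] at this
  omega

/-- Subgroups of order 40320 fixing `x` stabilise a duad off `x` or an octad through `x`. -/
theorem invariant_of_40320 (hK : K ≤ M24) (hx : ∀ h ∈ K, h x = x) (hc : Nat.card K = 40320) :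
    (∃ s : Finset GolayPt, s.card = 2 ∧ x ∉ s ∧ ∀ h ∈ K, ∀ v, h v ∈ s ↔ v ∈ s) ∨
      ∃ o ∈ octads, x ∈ o ∧ ∀ h ∈ K, ∀ v, h v ∈ o ↔ v ∈ o := by
  classical
  haveI : Fact (Nat.Prime 7) := ⟨by norm_num⟩
  haveI : Fact (Nat.Prime 5) := ⟨by norm_num⟩
  obtain ⟨τ, hτK, hτ⟩ := H10.exists_orderOf (H := K) (p := 7) (by rw [hc]; decide)
  obtain ⟨σ, hσK, hσ⟩ := H10.exists_orderOf (H := K) (p := 5) (by rw [hc]; decide)
  have hfτ := H10.card_fixed_eq (hK hτK) hτ (r := 3) (by decide) (by decide) (by decide)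
  have hfσ := H10.card_fixed_eq (hK hσK) hσ (r := 4) (by decide) (by decide) (by decide)
  have oct : ∀ R : Finset GolayPt, (∀ h ∈ K, ∀ v, h v ∈ R ↔ v ∈ R) → R.card = 7 → x ∉ R →
      ∃ o ∈ octads, x ∈ o ∧ ∀ h ∈ K, ∀ v, h v ∈ o ↔ v ∈ o := fun R hR h7 hxR =>
    ⟨_, octad_of_seven hK hx hc hR h7 hxR, Finset.mem_insert_self _ _, fun h hh v => by
      simp only [Finset.mem_insert, hR h hh v]
      exact or_congr ⟨fun e => h.injective (e.trans (hx h hh).symm), fun e => e ▸ hx h hh⟩ Iff.rfl⟩
  have orb : ∀ y, τ y = y → y ≠ x → ∃ O : Finset GolayPt, y ∈ O ∧ x ∉ O ∧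
      (∀ h ∈ K, ∀ v, h v ∈ O ↔ v ∈ O) ∧ (∀ v ∈ O, ∃ h ∈ K, h y = v) ∧
      O.card ∈ [1, 2, 8, 15, 16] ∧ (O.card ∈ [1, 8, 15] → (H10.fixedIn τ O).card = 1) ∧
      (H10.fixedIn σ O).card = (match O.card with | 8 => 3 | 15 => 0 | 2 => 2 | _ => 1) := by
    intro y hy hyx
    obtain ⟨O, hyO, hO, hreach, hcard⟩ := H10.exists_orbitFinset K y
    have hxO : x ∉ O := fun h => by
      obtain ⟨k, hk, he⟩ := hreach x h
      exact hyx (k.injective (he.trans (hx k hk).symm))
    have hd := Finset.disjoint_singleton_right.2 hxO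
    have h1 := H10.card_fixedIn_le (x := τ) (R := {x}) (by simpa using hx τ hτK) hd
    have h2 := H10.card_fixedIn_le (x := σ) (R := {x}) (by simpa using hx σ hσK) hd
    rw [Finset.card_singleton, hfτ] at h1
    rw [Finset.card_singleton, hfσ] at h2
    have hpos : 0 < (H10.fixedIn τ O).card :=
      Finset.card_pos.2 ⟨y, Finset.mem_filter.2 ⟨hyO, hy⟩⟩
    obtain ⟨i, hi⟩ := H10.dvd_card_movedIn hτ (O := O) (hO τ hτK)
    obtain ⟨j, hj⟩ := H10.dvd_card_movedIn hσ (O := O) (hO σ hσK)
    have s1 := H10.card_fixedIn_add τ O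
    have s2 := H10.card_fixedIn_add σ O
    have hle : O.card + 1 ≤ 24 := by
      have := Finset.card_le_univ (O ∪ {x})
      rwa [Finset.card_union_of_disjoint hd, Finset.card_singleton] at this
    have hdvd : O.card ∣ 40320 := Dvd.intro _ (hcard.trans hc)
    have h22 : O.card ≠ 22 := fun h => by rw [h] at hdvd; revert hdvd; decide
    have h23 : O.card ≠ 23 := fun h => by rw [h] at hdvd; revert hdvd; decide
    have hmem : O.card = 1 ∨ O.card = 2 ∨ O.card = 8 ∨ O.card = 15 ∨ O.card = 16 := by omega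
    refine ⟨O, hyO, hxO, hO, hreach, by simpa using hmem, fun h => ?_, ?_⟩
    · simp only [List.mem_cons, List.not_mem_nil, or_false] at h
      omega
    · rcases hmem with h | h | h | h | h <;> simp only [h] <;> omega
  obtain ⟨y, hy, hyx⟩ := Finset.exists_mem_ne (by rw [hfτ]; decide :
    1 < (H10.fixedIn τ Finset.univ).card) x
  obtain ⟨O, hyO, hxO, hO, hreach, hn, hone, hbσ⟩ := orb y (Finset.mem_filter.1 hy).2 hyx
  simp only [List.mem_cons, List.not_mem_nil, or_false] at hn
  by_cases h2 : O.card = 2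
  · exact Or.inl ⟨O, h2, hxO, hO⟩
  by_cases h8 : O.card = 8
  · exact (no_invariant_eight hK hx hc hO h8 hxO).elim
  by_cases h16 : O.card = 16
  · refine Or.inr (oct (Finset.univ \ insert x O) (fun h hh v => ?_) ?_ (by simp))
    · simp only [Finset.mem_sdiff, Finset.mem_univ, true_and, Finset.mem_insert, hO h hh v]
      exact not_congr (or_congr
        ⟨fun e => h.injective (e.trans (hx h hh).symm), fun e => e ▸ hx h hh⟩ Iff.rfl)
    · rw [Finset.card_sdiff, Finset.inter_univ, Finset.card_insert_of_notMem hxO, h16]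
      rfl
  -- `O` has 1 or 15 points, one of them fixed by `τ`; take the other fixed point.
  have h1 := hone (by simp; omega)
  have hsub : insert x (H10.fixedIn τ O) ⊆ H10.fixedIn τ Finset.univ := by
    intro v hv
    rcases Finset.mem_insert.mp hv with rfl | hv
    · exact Finset.mem_filter.2 ⟨Finset.mem_univ _, hx τ hτK⟩
    · exact Finset.mem_filter.2 ⟨Finset.mem_univ _, (Finset.mem_filter.1 hv).2⟩
  obtain ⟨y', hy', hy'n⟩ := Finset.exists_mem_notMem_of_card_lt_card
    (s := insert x (H10.fixedIn τ O)) (t := H10.fixedIn τ Finset.univ) (by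
      rw [hfτ, Finset.card_insert_of_notMem
        (show x ∉ H10.fixedIn τ O from fun h => hxO (Finset.mem_filter.1 h).1), h1]
      decide)
  have hy'x : y' ≠ x := fun h => hy'n (h ▸ Finset.mem_insert_self _ _)
  have hy'O : y' ∉ O := fun h =>
    hy'n (Finset.mem_insert_of_mem (Finset.mem_filter.2 ⟨h, (Finset.mem_filter.1 hy').2⟩))
  obtain ⟨O', hy'O', hxO', hO', hreach', hn', -, -⟩ := orb y' (Finset.mem_filter.1 hy').2 hy'x
  simp only [List.mem_cons, List.not_mem_nil, or_false] at hn'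
  by_cases h8' : O'.card = 8
  · exact (no_invariant_eight hK hx hc hO' h8' hxO').elim
  by_cases h2' : O'.card = 2
  · exact Or.inl ⟨O', h2', hxO', hO'⟩
  have hdisj : Disjoint O O' := Finset.disjoint_left.2 fun v hv hv' => by
    obtain ⟨k, hk, he⟩ := hreach' v hv'
    exact hy'O ((hO k hk y').mp (he.symm ▸ hv))
  have hle : O.card + O'.card + 1 ≤ 24 := by
    have := Finset.card_le_univ (insert x (O ∪ O'))
    rwa [Finset.card_insert_of_notMem (by simp [hxO, hxO']),
      Finset.card_union_of_disjoint hdisj] at this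
  have hinv : ∀ h ∈ K, ∀ v, h v ∈ O ∪ O' ↔ v ∈ O ∪ O' := fun h hh v => by
    simp only [Finset.mem_union, hO h hh v, hO' h hh v]
  by_cases hbig : O.card + O'.card = 2
  · exact Or.inl ⟨O ∪ O', by rw [Finset.card_union_of_disjoint hdisj, hbig], by simp [hxO, hxO'],
      hinv⟩
  by_cases h16' : O'.card = 16
  · refine Or.inr (oct (Finset.univ \ insert x O') (fun h hh v => ?_) ?_ (by simp))
    · simp only [Finset.mem_sdiff, Finset.mem_univ, true_and, Finset.mem_insert, hO' h hh v]
      exact not_congr (or_congr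
        ⟨fun e => h.injective (e.trans (hx h hh).symm), fun e => e ▸ hx h hh⟩ Iff.rfl)
    · rw [Finset.card_sdiff, Finset.inter_univ, Finset.card_insert_of_notMem hxO', h16']
      rfl
  refine Or.inr (oct (Finset.univ \ insert x (O ∪ O')) (fun h hh v => ?_) ?_ (by simp))
  · simp only [Finset.mem_sdiff, Finset.mem_univ, true_and, Finset.mem_insert, hinv h hh v]
    exact not_congr (or_congr
      ⟨fun e => h.injective (e.trans (hx h hh).symm), fun e => e ▸ hx h hh⟩ Iff.rfl)
  · rw [Finset.card_sdiff, Finset.inter_univ,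
      Finset.card_insert_of_notMem (by simp [hxO, hxO']), Finset.card_union_of_disjoint hdisj]
    show Fintype.card GolayPt - (O.card + O'.card + 1) = 7
    rw [show Fintype.card GolayPt = 24 from rfl]
    omega

theorem card_point_stab (x : GolayPt) : Nat.card (stabilizer M24 x) = 10200960 :=
  H12.card_stab_point x

/-- The duads off `x` form one orbit. -/
theorem stab_duad_le {x : GolayPt} {s : Finset GolayPt} (hs : s.card = 2) (hxs : x ∉ s) :
    Nat.card ↥((stabilizer M24 s).subgroupOf (stabilizer M24 x)) ≤ 40320 := by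
  classical
  have e : (stabilizer M24 s).subgroupOf (stabilizer M24 x) = stabilizer (stabilizer M24 x) s := rfl
  have h := (stabilizer (stabilizer M24 x) s).card_mul_index
  rw [index_stabilizer, card_point_stab] at h
  rw [e]
  have hcount : ((Finset.univ.erase x).powersetCard 2).card ≤
      (orbit (stabilizer M24 x) s).ncard := by
    rw [← Set.ncard_coe_finset]
    refine Set.ncard_le_ncard (fun t ht => ?_) (Set.toFinite _)
    rw [Finset.mem_coe, Finset.mem_powersetCard] at ht
    obtain ⟨a, b, hab, rfl⟩ := Finset.card_eq_two.mp hs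
    obtain ⟨c, d, hcd, rfl⟩ := Finset.card_eq_two.mp ht.2
    have hc' : x ≠ c := fun h => (Finset.mem_erase.mp (ht.1 (by simp : c ∈ ({c, d} : Finset _)))).1 h.symm
    have hd' : x ≠ d := fun h => (Finset.mem_erase.mp (ht.1 (by simp : d ∈ ({c, d} : Finset _)))).1 h.symm
    simp only [Finset.mem_insert, Finset.mem_singleton, not_or] at hxs
    have : IsPretransitive M24 (Fin 3 ↪ GolayPt) := three_pretransitive
    let e₁ : Fin 3 ↪ GolayPt := ⟨![x, a, b], fun i j h => by
      fin_cases i <;> fin_cases j <;> first | rfl | simp_all⟩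
    let e₂ : Fin 3 ↪ GolayPt := ⟨![x, c, d], fun i j h => by
      fin_cases i <;> fin_cases j <;> first | rfl | simp_all⟩
    obtain ⟨g, hg⟩ := exists_smul_eq M24 e₁ e₂
    have h0 : g • x = x := congrArg (fun e : Fin 3 ↪ GolayPt => e 0) hg
    have h1 : g • a = c := congrArg (fun e : Fin 3 ↪ GolayPt => e 1) hg
    have h2 : g • b = d := congrArg (fun e : Fin 3 ↪ GolayPt => e 2) hg
    refine ⟨⟨g, h0⟩, ?_⟩
    show g • ({a, b} : Finset GolayPt) = {c, d}
    rw [Finset.smul_finset_insert, Finset.smul_finset_singleton, h1, h2]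
  rw [Finset.card_powersetCard, Finset.card_erase_of_mem (Finset.mem_univ _), Finset.card_univ,
    show Fintype.card GolayPt = 24 from rfl, show Nat.choose (24 - 1) 2 = 253 from rfl] at hcount
  nlinarith [Nat.mul_le_mul_left (Nat.card (stabilizer (stabilizer M24 x) s)) hcount]

/-- The octads through `x` form one orbit. -/
theorem stab_octad_le {x : GolayPt} {o : Finset GolayPt} (ho : o ∈ octads) (hxo : x ∈ o) :
    Nat.card ↥((stabilizer M24 o).subgroupOf (stabilizer M24 x)) ≤ 40320 := by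
  classical
  have e : (stabilizer M24 o).subgroupOf (stabilizer M24 x) = stabilizer (stabilizer M24 x) o := rfl
  have h := (stabilizer (stabilizer M24 x) o).card_mul_index
  rw [index_stabilizer, card_point_stab] at h
  rw [e]
  obtain ⟨c, hc, hcp⟩ := exists_point x
  obtain ⟨hF, hnd⟩ := octads_filter (P := fun z => (none : GolayPt) ∈ z) (fun m => m.testBit 23)
    (fun m => none_mem_fin m)
  have hn : {z : Finset GolayPt | z ∈ octads ∧ (none : GolayPt) ∈ z}.ncard = 253 := by
    rw [hF, Set.ncard_coe_finset, List.toFinset_card_of_nodup hnd, List.length_map]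
    decide +kernel
  obtain ⟨h1, -, -⟩ := oct253_rank.conj c (F' := {y | y ∈ octads ∧ x ∈ y}) fun y =>
    and_congr (H12.smul_mem_octads (Subgroup.inv_mem _ hc)).symm (mem_inv_smul hcp y).symm
  have hcount : c • {z : Finset GolayPt | z ∈ octads ∧ (none : GolayPt) ∈ z} ⊆
      orbit (stabilizer M24 x) o := by
    rintro _ ⟨z, ⟨hz, hnz⟩, rfl⟩
    obtain ⟨g, hg, he⟩ := h1 o ⟨ho, hxo⟩ (c • z)
      ⟨(H12.smul_mem_octads hc).mpr hz, by rw [← hcp]; exact Finset.smul_mem_smul_finset hnz⟩
    obtain ⟨hgM, hgx⟩ := conj_g23 hc hcp hg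
    exact ⟨⟨⟨g, hgM⟩, hgx⟩, he⟩
  have hle := Set.ncard_le_ncard hcount (Set.toFinite _)
  rw [Set.ncard_smul_set, hn] at hle
  nlinarith [Nat.mul_le_mul_left (Nat.card (stabilizer (stabilizer M24 x) o)) hle]

/-- Subgroups of index 253 of a point stabiliser. -/
theorem index_253 (x : GolayPt) (H : Subgroup ↥(stabilizer M24 x)) (hH : H.index = 253) :
    (∃ s : Finset GolayPt, s.card = 2 ∧ x ∉ s ∧
        H = (stabilizer M24 s).subgroupOf (stabilizer M24 x)) ∨
      ∃ o ∈ octads, x ∈ o ∧ H = (stabilizer M24 o).subgroupOf (stabilizer M24 x) := by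
  let f := (Subgroup.subtype M24).comp (Subgroup.subtype (stabilizer M24 x))
  have hf : Function.Injective f := Subtype.val_injective.comp Subtype.val_injective
  have hcH : Nat.card H = 40320 := by
    have := H.card_mul_index
    rw [hH, card_point_stab] at this
    omega
  have key : ∀ s : Finset GolayPt, (∀ h ∈ H.map f, ∀ v, h v ∈ s ↔ v ∈ s) →
      H ≤ (stabilizer M24 s).subgroupOf (stabilizer M24 x) := by
    intro s hs g hg
    rw [Subgroup.mem_subgroupOf, mem_stabilizer_iff]
    ext v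
    show v ∈ ((g : M24) : Equiv.Perm GolayPt) • s ↔ v ∈ s
    rw [← Finset.inv_smul_mem_iff, Equiv.Perm.smul_def]
    exact hs _ (Subgroup.inv_mem _ ⟨g, hg, rfl⟩) v
  rcases invariant_of_40320 (K := H.map f) (by rintro _ ⟨g, -, rfl⟩; exact (g : M24).2)
      (by rintro _ ⟨g, -, rfl⟩; exact g.2) (by rw [Subgroup.card_map_of_injective hf, hcH]) with
    ⟨s, hs, hxs, hinv⟩ | ⟨o, ho, hxo, hinv⟩
  · exact Or.inl ⟨s, hs, hxs,
      Subgroup.eq_of_le_of_card_ge (key s hinv) (hcH ▸ stab_duad_le hs hxs)⟩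
  · exact Or.inr ⟨o, ho, hxo,
      Subgroup.eq_of_le_of_card_ge (key o hinv) (hcH ▸ stab_octad_le ho hxo)⟩

end Cfsg.Agent.H13
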