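import Cfsg.Agent.H13.Transfer
import Cfsg.Agent.H13.HomTable
import Cfsg.Agent.H13.DataL2
import Cfsg.Agent.H13.Packed
import Cfsg.Agent.H1.Generation
import Cfsg.Agent.H1.Orders
import Mathlib.LinearAlgebra.Matrix.ProjectiveSpecialLinearGroup

/-!
The stabiliser in M₁₁ of a point outside the dodecad is PSL(2, 11).
-/

set_option autoImplicit false

namespace Cfsg.Agent.H13

open MulAction Cfsg.Agent.H12 Data Matrix
open scoped Pointwise

instance fact_prime_eleven : Fact (Nat.Prime 11) := ⟨by norm_num⟩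

/-- The table by the Bruhat decomposition, on residues; `x ^ 9` inverts modulo 11. -/
noncomputable def l2P (a b c d : ℕ) : ℕ :=
  Bool.rec
    (pmulF (pmulF (pmulF (l2Upper.getD (a * c ^ 9 % 11) 0) l2Weyl) (l2Diag.getD c 0))
      (l2Upper.getD (d * c ^ 9 % 11) 0))
    (pmulF (l2Diag.getD a 0) (l2Upper.getD (b * a ^ 9 % 11) 0)) (Nat.beq c 0)

/-- The conditions on one quadruple of residues. -/
noncomputable def l2Cond (n : ℕ) : Bool :=
  forceNat (n / 1331) fun a => forceNat (n / 121 % 11) fun b =>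
  forceNat (n / 11 % 11) fun c => forceNat (n % 11) fun d =>
    Bool.rec true
      (forceNat (l2P a b c d) fun P =>
        Nat.beq (l2P a ((a + b) % 11) c ((c + d) % 11)) (pmulF P (l2P 1 1 0 1)) &&
        Nat.beq (l2P ((a + b) % 11) b ((c + d) % 11) d) (pmulF P (l2P 1 0 1 1)) &&
        (Nat.beq P pone == (Nat.beq b 0 && Nat.beq c 0 && Nat.beq a d)))
      (Nat.beq ((a * d + 11 * 11 - b * c) % 11) 1)

theorem l2Cond_all : allBelow 14 14641 l2Cond = true := by decide +kernel

/-- The table on `SL(2, 11)`, as image lists. -/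
noncomputable def l2Table (A : SpecialLinearGroup (Fin 2) (ZMod 11)) : List ℕ :=
  unP (l2P (A.1 0 0).val (A.1 0 1).val (A.1 1 0).val (A.1 1 1).val)

theorem l2_small : smallP (l2P 1 1 0 1) = true ∧ smallP (l2P 1 0 1 1) = true := by decide +kernel

theorem l2P_packed (a b c d : ℕ) : l2P a b c d = pack (unP (l2P a b c d)) := by
  rw [l2P]
  cases Nat.beq c 0 <;> simp only [pmulF_eq] <;> exact pack_unP_pmul _ _

theorem l2F_check (a b c d : ZMod 11) (h : a * d - b * c = 1) :
    unP (l2P a.val (a + b).val c.val (c + d).val) =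
      mulL (unP (l2P a.val b.val c.val d.val)) (unP (l2P 1 1 0 1)) ∧
    unP (l2P (a + b).val b.val (c + d).val d.val) =
      mulL (unP (l2P a.val b.val c.val d.val)) (unP (l2P 1 0 1 1)) ∧
    (unP (l2P a.val b.val c.val d.val) = List.range 24 ↔ b = 0 ∧ c = 0 ∧ a = d) := by
  have ha := ZMod.val_lt a
  have hb := ZMod.val_lt b
  have hc := ZMod.val_lt c
  have hd := ZMod.val_lt d
  have hn := allBelow_spec l2Cond_all
    (show 1331 * a.val + 121 * b.val + 11 * c.val + d.val < 14641 by omega)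
  have e1 : (1331 * a.val + 121 * b.val + 11 * c.val + d.val) / 1331 = a.val := by omega
  have e2 : (1331 * a.val + 121 * b.val + 11 * c.val + d.val) / 121 % 11 = b.val := by omega
  have e3 : (1331 * a.val + 121 * b.val + 11 * c.val + d.val) / 11 % 11 = c.val := by omega
  have e4 : (1331 * a.val + 121 * b.val + 11 * c.val + d.val) % 11 = d.val := by omega
  have hdet : Nat.beq ((a.val * d.val + 11 * 11 - b.val * c.val) % 11) 1 = true := by
    have h2 : b.val * c.val ≤ a.val * d.val + 11 * 11 :=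
      le_add_left (Nat.mul_le_mul hb.le hc.le)
    rw [Nat.beq_eq, ← ZMod.val_natCast, Nat.cast_sub h2]
    simp only [Nat.cast_add, Nat.cast_mul, ZMod.natCast_zmod_val]
    rw [ZMod.natCast_self, mul_zero, add_zero, h]
    rfl
  rw [l2Cond] at hn
  repeat rw [forceNat_eq] at hn
  rw [e1, e2, e3, e4, hdet] at hn
  dsimp only at hn
  rw [Bool.and_eq_true, Bool.and_eq_true, Nat.beq_eq, Nat.beq_eq, beq_iff_eq] at hn
  obtain ⟨⟨h1, h2⟩, h3⟩ := hn
  rw [ZMod.val_add, ZMod.val_add, h1, h2, pmulF_eq, pmulF_eq, mulL_unP l2_small.1,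
    mulL_unP l2_small.2]
  refine ⟨rfl, rfl, ?_⟩
  rw [unP_eq_range (l2P_packed _ _ _ _)]
  have := Bool.eq_iff_iff.mp h3
  simp only [Bool.and_eq_true, Nat.beq_eq] at this
  rw [this, ZMod.val_eq_zero, ZMod.val_eq_zero, (ZMod.val_injective 11).eq_iff, and_assoc]

/-- The upper transvection. -/
def l2U : SpecialLinearGroup (Fin 2) (ZMod 11) := ⟨!![1, 1; 0, 1], by decide +kernel⟩

/-- The lower transvection. -/
def l2L : SpecialLinearGroup (Fin 2) (ZMod 11) := ⟨!![1, 0; 1, 1], by decide +kernel⟩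

theorem mul_entries (X Y : SpecialLinearGroup (Fin 2) (ZMod 11)) (i j : Fin 2) :
    (X * Y).1 i j = X.1 i 0 * Y.1 0 j + X.1 i 1 * Y.1 1 j := by
  show (X.1 * Y.1) i j = _
  rw [Matrix.mul_apply, Fin.sum_univ_two]

theorem mul_l2U (X : SpecialLinearGroup (Fin 2) (ZMod 11)) :
    (X * l2U).1 0 0 = X.1 0 0 ∧ (X * l2U).1 0 1 = X.1 0 0 + X.1 0 1 ∧
      (X * l2U).1 1 0 = X.1 1 0 ∧ (X * l2U).1 1 1 = X.1 1 0 + X.1 1 1 := by
  rw [mul_entries, mul_entries, mul_entries, mul_entries]
  simp [l2U]

theorem mul_l2L (X : SpecialLinearGroup (Fin 2) (ZMod 11)) :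
    (X * l2L).1 0 0 = X.1 0 0 + X.1 0 1 ∧ (X * l2L).1 0 1 = X.1 0 1 ∧
      (X * l2L).1 1 0 = X.1 1 0 + X.1 1 1 ∧ (X * l2L).1 1 1 = X.1 1 1 := by
  rw [mul_entries, mul_entries, mul_entries, mul_entries]
  simp [l2L]

theorem det_rel (A : SpecialLinearGroup (Fin 2) (ZMod 11)) :
    A.1 0 0 * A.1 1 1 - A.1 0 1 * A.1 1 0 = 1 := by
  rw [← Matrix.det_fin_two]; exact A.2

theorem l2_gen : Submonoid.closure ({l2U, l2L} : Set (SpecialLinearGroup (Fin 2) (ZMod 11))) = ⊤ := by
  rw [eq_top_iff]
  rintro A -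
  induction A using Cfsg.Agent.H1.SL_transvection_induction with
  | h1 => exact Submonoid.one_mem _
  | hmul X Y hX hY => exact Submonoid.mul_mem _ hX hY
  | ht i j hij c =>
    have key : ∀ k : ℕ, (SpecialLinearGroup.transvection hij (k : ZMod 11)) =
        (if i = 0 then l2U else l2L) ^ k := by
      intro k
      induction k with
      | zero => exact Subtype.ext (by simp [Matrix.SpecialLinearGroup.transvection_coe])
      | succ k ih =>
        rw [pow_succ, ← ih]
        apply Subtype.ext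
        fin_cases i <;> fin_cases j <;>
          first | exact absurd rfl hij |
            (ext r s; rw [mul_entries]; fin_cases r <;> fin_cases s <;>
              simp [Matrix.SpecialLinearGroup.transvection_coe,
                Matrix.single_apply, Matrix.one_apply, l2U, l2L, add_comm])
    rw [← ZMod.natCast_zmod_val c, key]
    refine Submonoid.pow_mem _ (Submonoid.subset_closure ?_) _
    split_ifs <;> simp

theorem l2_center (A : SpecialLinearGroup (Fin 2) (ZMod 11)) :
    A ∈ Subgroup.center (SpecialLinearGroup (Fin 2) (ZMod 11)) ↔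
      A.1 0 1 = 0 ∧ A.1 1 0 = 0 ∧ A.1 0 0 = A.1 1 1 := by
  rw [Matrix.SpecialLinearGroup.mem_center_iff]
  constructor
  · rintro ⟨r, -, h⟩
    simp [← h]
  · rintro ⟨h1, h2, h3⟩
    refine ⟨A.1 0 0, ?_, ?_⟩
    · have := det_rel A
      rw [h1, h3] at this
      simpa [pow_two, h3] using this
    · ext r s
      fin_cases r <;> fin_cases s <;> simp [h1, h2, h3]

theorem l2_valid : l2Gens.all (validB 24) = true := by decide +kernel

theorem l2_check : check 24 l2Levels l2Gens = true := by decide +kernel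

theorem l2_equiv :
    Nonempty (grp l2Gens ≃* ProjectiveSpecialLinearGroup (Fin 2) (ZMod 11)) := by
  refine nonempty_equiv_quotient (L := l2Levels) l2_valid l2_check (Subgroup.center _) l2Table
    {l2U, l2L} l2_gen (by decide +kernel) ?_ ?_ ?_ ?_
  · rintro s (rfl | rfl)
    · exact ⟨l2Gens.getD 0 (oneP 24), by decide +kernel, by decide +kernel, by decide +kernel⟩
    · exact ⟨l2Gens.getD 1 (oneP 24), by decide +kernel, by decide +kernel, by decide +kernel⟩
  · intro g s hs
    have h := l2F_check _ _ _ _ (det_rel g)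
    rcases hs with rfl | rfl
    · obtain ⟨q1, q2, q3, q4⟩ := mul_l2U g
      rw [show l2Table l2U = unP (l2P 1 1 0 1) from rfl, l2Table, q1, q2, q3, q4]
      exact h.1
    · obtain ⟨q1, q2, q3, q4⟩ := mul_l2L g
      rw [show l2Table l2L = unP (l2P 1 0 1 1) from rfl, l2Table, q1, q2, q3, q4]
      exact h.2.1
  · intro g
    rw [l2_center]
    exact (l2F_check _ _ _ _ (det_rel g)).2.2
  · have h1 := Cfsg.Agent.H1.sub_one_mul_card_SL (F := ZMod 11) (ZMod.card 11) 2 (by norm_num)
    simp only [Fin.prod_univ_two] at h1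
    norm_num at h1
    rw [Cfsg.Agent.H1.card_center_SL, Nat.card_units, Nat.card_zmod, Fintype.card_fin,
      show chainCard l2Levels = 660 by decide +kernel]
    norm_num
    omega

theorem l2_eq : grp g11 ⊓ stabilizer (Equiv.Perm GolayPt) (pt 23) = grp l2Gens := by
  rw [grp_inf_stabilizer _ _ g11_valid m11out_check (by norm_num : (23 : ℕ) < 24) rfl]
  exact le_antisymm
    (grp_le_grp l2Levels l2_valid (by decide +kernel) l2_check (by decide +kernel))
    (grp_le_grp m11outLevels.tail (by decide +kernel) l2_valid (by decide +kernel) (by decide +kernel))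

theorem l2_le : grp l2Gens ≤ M24 := grp_le_M24 l2_valid (by decide +kernel)

theorem stab_l2 : stabilizer M24 Spor.squareDodecad ⊓ stabilizer M24 (some 0 : GolayPt) ⊓
    stabilizer M24 (none : GolayPt) = (grp l2Gens).subgroupOf M24 := by
  rw [stab11, ← l2_eq]
  rfl

end Cfsg.Agent.H13
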