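import Cfsg.Agent.H13.Engine

/-!
Certified chains for the groups M₁₂ and M₁₁ given by explicit permutations of twelve points.
-/

set_option autoImplicit false

namespace Cfsg.Agent.H13.M12Fin

open MulAction Equiv

def gens12 : List PL := [([0, 1, 2, 4, 5, 3, 7, 8, 6, 10, 11, 9], [0, 1, 2, 5, 3, 4, 8, 6, 7, 11, 9, 10]), ([0, 1, 2, 6, 7, 8, 9, 10, 11, 3, 4, 5], [0, 1, 2, 9, 10, 11, 3, 4, 5, 6, 7, 8]), ([0, 1, 2, 3, 6, 9, 5, 8, 11, 4, 7, 10], [0, 1, 2, 3, 9, 6, 4, 10, 7, 5, 11, 8]), ([0, 1, 2, 3, 7, 11, 10, 5, 6, 8, 9, 4], [0, 1, 2, 3, 11, 7, 8, 4, 9, 10, 6, 5]), ([0, 1, 2, 3, 10, 8, 11, 6, 4, 7, 5, 9], [0, 1, 2, 3, 8, 10, 7, 9, 5, 11, 4, 6]), ([3, 1, 2, 0, 4, 5, 7, 6, 10, 11, 8, 9], [3, 1, 2, 0, 4, 5, 7, 6, 10, 11, 8, 9]), ([1, 0, 2, 3, 4, 5, 9, 10, 11, 6, 7, 8], [1, 0, 2, 3, 4, 5, 9, 10, 11, 6, 7, 8]), ([0, 2, 1, 3, 4, 5, 11, 9, 10, 7, 8, 6], [0, 2, 1, 3, 4, 5, 11, 9,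 10, 7, 8, 6])]

def gens11 : List PL := gens12.take 7

def levels12 : List Level := [
  ⟨2, [(0, 7), (1, 6), (2, 5), (3, 0), (3, 1), (4, 0), (4, 1), (4, 4), (5, 1), (5, 4), (6, 1)], [(0, 4, 0), (11, 5, 8), (5, 7, 10), (8, 6, 7)]⟩,
  ⟨1, [(0, 2), (1, 3), (2, 1), (3, 0), (3, 1), (3, 2), (3, 3), (4, 0), (4, 1), (4, 2)], [(6, 3, 4), (2, 0, 2)]⟩,
  ⟨0, [(0, 0), (1, 0), (2, 1), (3, 0), (3, 1), (4, 0), (4, 1), (7, 0), (8, 0)], [(4, 1, 9), (9, 1, 8)]⟩,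
  ⟨3, [(0, 0), (0, 1), (1, 0), (1, 1), (2, 0), (3, 1), (5, 0), (7, 0)], [(4, 0, 3), (1, 1, 2)]⟩,
  ⟨4, [(0, 0), (0, 1), (1, 0), (1, 1), (2, 0), (3, 0), (3, 1)], []⟩]

def levels11 : List Level := [
  ⟨1, [(0, 6), (1, 5), (2, 0), (2, 1), (3, 0), (3, 1), (3, 4), (4, 1), (4, 4), (5, 1)], [(3, 6, 3), (6, 4, 8), (8, 5, 9)]⟩,
  ⟨0, [(0, 0), (1, 2), (2, 0), (2, 1), (3, 1), (4, 0), (4, 2), (5, 0), (6, 2)], [(5, 2, 9), (0, 1, 0)]⟩,
  ⟨3, [(0, 0), (1, 0), (1, 1), (2, 0), (3, 0), (3, 1), (4, 1), (5, 0)], [(4, 1, 2), (0, 1, 0)]⟩,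
  ⟨4, [(0, 0), (0, 1), (1, 0), (1, 1), (2, 0), (3, 0), (3, 1)], []⟩]

/-- The eight permutations of the construction. -/
def perms : List (Equiv.Perm (Fin 12)) :=
  [swap 3 5 * swap 3 4 * swap 6 8 * swap 6 7 * swap 9 11 * swap 9 10,
   swap 3 9 * swap 3 6 * swap 4 10 * swap 4 7 * swap 5 11 * swap 5 8,
   swap 4 9 * swap 4 5 * swap 4 6 * swap 7 10 * swap 7 11 * swap 7 8,
   swap 4 11 * swap 4 5 * swap 4 7 * swap 6 8 * swap 6 9 * swap 6 10,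
   swap 4 8 * swap 4 5 * swap 4 10 * swap 6 7 * swap 6 9 * swap 6 11,
   swap 0 3 * swap 6 7 * swap 8 10 * swap 9 11,
   swap 0 1 * swap 6 9 * swap 7 10 * swap 8 11,
   swap 1 2 * swap 6 11 * swap 7 9 * swap 8 10]

theorem gens12_eq : (perms.map fun σ => (img σ, img σ⁻¹)) = gens12 := by decide +kernel

theorem valid12 : ∀ a ∈ gens12, Valid (⊤ : Subgroup (Equiv.Perm (Fin 12))) a := by
  intro a ha
  rw [← gens12_eq, List.mem_map] at ha
  obtain ⟨σ, -, rfl⟩ := ha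
  exact ⟨σ, Subgroup.mem_top _, rfl⟩

theorem valid11 : ∀ a ∈ gens11, Valid (⊤ : Subgroup (Equiv.Perm (Fin 12))) a := fun a ha =>
  valid12 a (List.mem_of_mem_take ha)

theorem check12 : check 12 levels12 gens12 = true := by decide +kernel

theorem check11 : check 12 levels11 gens11 = true := by decide +kernel

/-- A closure of a list of permutations as a generated group. -/
theorem closure_eq {k : ℕ} (l : List (Equiv.Perm (Fin k))) :
    Subgroup.closure {σ | σ ∈ l} = genGroup k (l.map fun σ => (img σ, img σ⁻¹)) := by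
  rw [genGroup]
  congr 1
  ext σ
  simp only [Set.mem_ofPred_eq, List.mem_map]
  constructor
  · exact fun h => ⟨σ, h, rfl⟩
  · rintro ⟨τ, h, he⟩
    rwa [← img_injective (congrArg Prod.fst he)]

theorem m12_closure : Subgroup.closure {σ | σ ∈ perms} = genGroup 12 gens12 := by
  rw [closure_eq, gens12_eq]

theorem m11_closure : Subgroup.closure {σ | σ ∈ perms.take 7} = genGroup 12 gens11 := by
  rw [closure_eq, gens11, ← gens12_eq, List.map_take]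

theorem next_eq : ∀ d ∈ levels12.take 1, d.base = 2 ∧
    (d.nextGens 12 gens12).all (fun a => sift 12 (chain 12 levels11 gens11) a.1) = true := by
  decide +kernel

theorem m11_eq : genGroup 12 gens12 ⊓ stabilizer (Equiv.Perm (Fin 12)) (2 : Fin 12) =
    genGroup 12 gens11 := by
  apply le_antisymm
  · obtain ⟨hb, hs⟩ := next_eq _ (List.mem_cons_self)
    rw [stabilizer_eq _ _ gens12 (2 : Fin 12) hb valid12 check12]
    apply genGroup_le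
    intro a ha
    obtain ⟨σ, -, rfl⟩ := nextGens_valid _ valid12 a ha
    refine ⟨σ, ?_, rfl⟩
    rw [← SetLike.mem_coe, (check_spec levels11 gens11 valid11 check11).1]
    exact mem_prodSet_of_sift _ (chain_valid _ _ valid11) σ (List.all_eq_true.mp hs _ ha)
  · apply genGroup_le
    intro a ha
    obtain ⟨σ, hσ, rfl⟩ := valid_genGroup valid12 a (List.mem_of_mem_take ha)
    refine ⟨σ, ⟨hσ, ?_⟩, rfl⟩
    have h2 : ∀ a ∈ gens11, a.1.getD 2 0 = 2 := by decide +kernel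
    have := h2 _ ha
    rw [show (img σ).getD 2 0 = _ from img_getD σ (2 : Fin 12)] at this
    exact Fin.ext this

end Cfsg.Agent.H13.M12Fin
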