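import Cfsg.Agent.H13.Transfer
import Cfsg.Agent.H13.Enum
import Cfsg.Agent.H13.DataNine
import Mathlib.GroupTheory.SpecificGroups.Quaternion
import Mathlib.GroupTheory.Sylow

/-!
The stabiliser of a dodecad and three of its points: order 72, transitive off the dodecad, normal
elementary abelian Sylow 3-subgroup, quaternion Sylow 2-subgroups.
-/

set_option autoImplicit false

namespace Cfsg.Agent.H13

open MulAction Cfsg.Agent.H12 Data
open scoped Pointwise

theorem g9_valid : g9.all (validB 24) = true := by decide +kernel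

theorem g9_check : check 24 g9Levels g9 = true := by decide +kernel

theorem card_g9 : Nat.card (grp g9) = 72 := by
  rw [card_grp _ g9_valid g9_check]; decide +kernel

theorem g9_le : grp g9 ≤ M24 := grp_le_M24 g9_valid (by decide +kernel)

theorem g9_eq : grp g12 ⊓ stabilizer (Equiv.Perm GolayPt) (pt 0) ⊓
    stabilizer (Equiv.Perm GolayPt) (pt 1) ⊓ stabilizer (Equiv.Perm GolayPt) (pt 2) = grp g9 := by
  obtain ⟨a, b, c, rest, hL⟩ : ∃ a b c rest, m12Levels = a :: b :: c :: rest :=
    ⟨_, _, _, _, rfl⟩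
  obtain ⟨ha, hL'⟩ := List.cons.inj hL
  obtain ⟨hb, hL''⟩ := List.cons.inj hL'
  obtain ⟨hc, hrest⟩ := List.cons.inj hL''
  subst ha hb hc hrest
  rw [grp_inf_stabilizer _ _ g12_valid m12_check (by norm_num : (0 : ℕ) < 24) rfl,
    grp_inf_stabilizer _ _ (by decide +kernel) (by decide +kernel : check 24 m12Levels.tail _ = true)
      (by norm_num : (1 : ℕ) < 24) rfl,
    grp_inf_stabilizer _ _ (by decide +kernel)
      (by decide +kernel : check 24 m12Levels.tail.tail _ = true) (by norm_num : (2 : ℕ) < 24) rfl]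
  exact le_antisymm
    (grp_le_grp g9Levels g9_valid (by decide +kernel) g9_check (by decide +kernel))
    (grp_le_grp m12Levels.tail.tail.tail (by decide +kernel) g9_valid (by decide +kernel)
      (by decide +kernel))

theorem stab9 : stabilizer M24 Spor.squareDodecad ⊓ stabilizer M24 (some 0 : GolayPt) ⊓
    stabilizer M24 (some 1 : GolayPt) ⊓ stabilizer M24 (some 2 : GolayPt) =
      (grp g9).subgroupOf M24 := by
  rw [stab12, ← g9_eq]
  rfl

theorem g9_out_transitive {x : GolayPt} (hx : x ∉ Spor.squareDodecad) :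
    ∃ g ∈ grp g9, g (none : GolayPt) = x := by
  have h : transOn [g9OutLevel] g9 outList = true := by decide +kernel
  obtain ⟨g, hg, he⟩ := exists_map_bases _ g9 outList g9_valid h [x] rfl (by simp)
    (by simpa using idx_mem_outList.mpr hx)
  exact ⟨g, hg, List.head_eq_of_cons_eq he⟩

theorem p9_valid : p9.all (validB 24) = true := by decide +kernel

theorem p9_check : check 24 p9Levels p9 = true := by decide +kernel

theorem card_p9 : Nat.card (grp p9) = 3 ^ 2 := by
  rw [card_grp _ p9_valid p9_check]; decide +kernel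

theorem p9_le : grp p9 ≤ grp g9 :=
  grp_le_grp g9Levels g9_valid p9_valid g9_check (by decide +kernel)

theorem p9_cube {g : Equiv.Perm GolayPt} (hg : g ∈ grp p9) : g ^ 3 = 1 := by
  have hc : (elems 24 p9Levels p9).all
      (fun a => mulL a.1 (mulL a.1 a.1) == List.range 24) = true := by decide +kernel
  have h := forall_grp p9Levels p9_valid p9_check _ hc hg
  simp only [beq_iff_eq] at h
  rw [mulL_img, mulL_img, ← map_mul, ← map_mul, ← img_one, ← map_one toFin] at h
  rw [pow_succ', pow_two]
  exact toFin.injective (img_injective h)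

theorem p9_normal : ((grp p9).subgroupOf (grp g9)).Normal := by
  apply Subgroup.Normal.of_conjugate_fixed
  intro k
  have hle : grp g9 ≤ Subgroup.normalizer ((grp p9 : Subgroup (Equiv.Perm GolayPt)) :
      Set (Equiv.Perm GolayPt)) := by
    apply grp_le g9_valid
    intro a ha g hg
    rw [Subgroup.mem_normalizer_iff_map_conj_eq]
    have hmap : (grp p9).map (MulAut.conj g).toMonoidHom ≤ grp p9 := by
      rw [Subgroup.map_le_iff_le_comap]
      apply grp_le p9_valid
      intro b hb k hk
      show g * k * g⁻¹ ∈ grp p9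
      apply mem_grp_of_sift p9Levels p9_valid p9_check
      have hinv : img (toFin g⁻¹) = a.2 := by
        obtain ⟨σ, -, rfl⟩ := valid_all g9_valid a ha
        rw [map_inv, show toFin g = σ from img_injective hg]
      rw [map_mul, map_mul, ← mulL_img, ← mulL_img, hg, hk, hinv]
      have hall : ∀ a ∈ g9, ∀ b ∈ p9,
          sift 24 (chain 24 p9Levels p9) (mulL (mulL a.1 b.1) a.2) = true := by decide +kernel
      exact hall a ha b hb
    exact Subgroup.eq_of_le_of_card_ge hmap
      (le_of_eq (Subgroup.card_map_of_injective (MulAut.conj g).injective).symm)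
  ext x
  have h1 := Subgroup.mem_normalizer_iff.mp (hle k.2) ((k⁻¹ * x * k : grp g9) : Equiv.Perm GolayPt)
  rw [Subgroup.mem_pointwise_smul_iff_inv_smul_mem, Subgroup.mem_subgroupOf, Subgroup.mem_subgroupOf]
  simpa [MulAut.smul_def, mul_assoc] using h1

theorem fact72 : (Nat.factorization 72) 2 = 3 ∧ (Nat.factorization 72) 3 = 2 := by
  rw [show (72 : ℕ) = 2 ^ 3 * 3 ^ 2 by norm_num, Nat.factorization_mul (by norm_num) (by norm_num),
    Nat.Prime.factorization_pow (by norm_num), Nat.Prime.factorization_pow (by norm_num)]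
  simp

theorem g9_sylow3 (Q : Sylow 3 (grp g9)) :
    (Q : Subgroup (grp g9)).Normal ∧ Nat.card Q = 9 ∧ ∀ x ∈ (Q : Subgroup (grp g9)), x ^ 3 = 1 := by
  have hP : Nat.card ((grp p9).subgroupOf (grp g9)) = 3 ^ 2 := by
    rw [Nat.card_congr (Subgroup.subgroupOfEquivOfLe p9_le).toEquiv, card_p9]
  have hQ : Nat.card Q = 3 ^ 2 := by
    rw [Q.card_eq_multiplicity, card_g9, fact72.2]
  have hn := p9_normal
  obtain ⟨Q₀, hQ₀⟩ := (IsPGroup.of_card hP).exists_le_sylow
  have hPQ₀ : (grp p9).subgroupOf (grp g9) = Q₀ := Subgroup.eq_of_le_of_card_ge hQ₀ (by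
    rw [hP, Q₀.card_eq_multiplicity, ← hQ, Q.card_eq_multiplicity])
  have _ := Sylow.unique_of_normal Q₀ (hPQ₀ ▸ hn)
  obtain rfl : Q = Q₀ := Subsingleton.elim _ _
  refine ⟨hPQ₀ ▸ hn, hQ, fun x hx => ?_⟩
  rw [← hPQ₀] at hx
  exact Subtype.ext (by simpa using p9_cube hx)

/-- Table of a quaternion subgroup. -/
def qTable : QuaternionGroup 2 → PL
  | QuaternionGroup.a i => (List.range i.val).foldl (fun acc _ => mulP (q8.getD 0 (oneP 24)) acc) (oneP 24)
  | QuaternionGroup.xa i => mulP (q8.getD 1 (oneP 24))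
      ((List.range i.val).foldl (fun acc _ => mulP (q8.getD 0 (oneP 24)) acc) (oneP 24))

theorem q8_valid : q8.all (validB 24) = true := by decide +kernel

theorem q8_check : check 24 q8Levels q8 = true := by decide +kernel

theorem q8_le : grp q8 ≤ grp g9 :=
  grp_le_grp g9Levels g9_valid q8_valid g9_check (by decide +kernel)

theorem g9_sylow2 (P : Sylow 2 (grp g9)) : Nonempty (P ≃* QuaternionGroup 2) := by
  obtain ⟨e⟩ := nonempty_equiv_grp (K := QuaternionGroup 2) (L := q8Levels) q8_valid q8_check qTable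
    (by decide +kernel) (by decide +kernel) (by decide +kernel) (by decide +kernel)
    (by rw [Nat.card_eq_fintype_card]; decide +kernel)
  have hR : Nat.card ((grp q8).subgroupOf (grp g9)) = 2 ^ 3 := by
    rw [Nat.card_congr (Subgroup.subgroupOfEquivOfLe q8_le).toEquiv, card_grp _ q8_valid q8_check]
    decide +kernel
  obtain ⟨P₀, hP₀⟩ := (IsPGroup.of_card hR).exists_le_sylow
  have hP₀' : (grp q8).subgroupOf (grp g9) = P₀ := Subgroup.eq_of_le_of_card_ge hP₀ (by
    rw [hR, P₀.card_eq_multiplicity, card_g9, fact72.1])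
  exact ⟨(P.equiv P₀).trans ((MulEquiv.subgroupCongr hP₀'.symm).trans
    ((Subgroup.subgroupOfEquivOfLe q8_le).trans e))⟩

end Cfsg.Agent.H13
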