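import Cfsg.Agent.H13.Bridge
import Cfsg.Agent.H13.Packed
import Cfsg.Agent.H12.Five

/-!
Normalisers of cyclic subgroups of prime order inside a two-point stabiliser, by a scan.
-/

set_option autoImplicit false

namespace Cfsg.Agent.H13

open MulAction Cfsg.Agent.H12

/-- Iterated application of a packed permutation. -/
def iterApp (y : ℕ) : ℕ → ℕ → ℕ
  | 0, a => a
  | e + 1, a => app y (iterApp y e a)

/-- Packed powers `z, z², …` of a packed permutation. -/
def powsOK (z : ℕ) (pw : List ℕ) : Bool :=
  isPerm z && pw.length != 0 && pw.getD 0 0 == z &&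
    ((List.range (pw.length - 1)).all fun j => pw.getD (j + 1) 0 == pmul z (pw.getD j 0)) &&
    pmul z (pw.getD (pw.length - 1) 0) == pone

/-- Five-tuples of images of a normalising candidate. -/
def normTup (pw E : List ℕ) (k i : ℕ) : ℕ :=
  iterApp (pw.getD (k % pw.length) 0) (E.getD i 0) (k / pw.length)

/-- Admissible candidates. -/
def normValid (pw : List ℕ) (k : ℕ) : Bool :=
  app (pw.getD (k % pw.length) 0) (k / pw.length) != k / pw.length

/-- Fixes two points and conjugates `z` to a power. -/
def normTest (z : ℕ) (pw : List ℕ) (u v : ℕ) (f : ℕ → ℕ) : Bool :=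
  f u == u && f v == v &&
    (List.range pw.length).any fun j =>
      (List.range 24).all fun i => f (app z i) == app (pw.getD j 0) (f i)

/-- Everything found by the scan lies in the group of `S`. -/
noncomputable def normScan (z : ℕ) (pw E : List ℕ) (u v : ℕ) (L : List Level) (S : List PL) : Bool :=
  powsOK z pw && app z 0 != 0 && ((List.range 5).all fun i => iterApp z (E.getD i 0) 0 == i) &&
    scanOK 8 (24 * pw.length) (normValid pw) (normTup pw E) &&
    allList (scanList (24 * pw.length) (normValid pw) (normTup pw E) (normTest z pw u v))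
      (fun c => sift 24 (chain 24 L S) (unP c))

theorem img_toFin_eq_unP (g : Equiv.Perm GolayPt) : img (toFin g) = unP (code g) := by
  apply List.ext_getElem (by simp [img, unP])
  intro i h1 h2
  have hi : i < 24 := by simpa [img] using h1
  rw [← List.getD_eq_getElem _ 0 h1,
    show (img (toFin g)).getD i 0 = _ from img_getD (toFin g) ⟨i, hi⟩]
  simp only [unP, List.getElem_map, List.getElem_range]
  rw [app_code g hi]
  exact toFin_apply g ⟨i, hi⟩

theorem powsOK_spec {z : ℕ} {pw : List ℕ} (h : powsOK z pw = true) :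
    isPerm z = true ∧ 0 < pw.length ∧
      (∀ j < pw.length, isPerm (pw.getD j 0) = true ∧ permOf (pw.getD j 0) = permOf z ^ (j + 1)) ∧
      permOf z ^ (pw.length + 1) = 1 := by
  simp only [powsOK, Bool.and_eq_true, bne_iff_ne, beq_iff_eq, List.all_eq_true,
    List.mem_range] at h
  obtain ⟨⟨⟨⟨hz, hl⟩, h0⟩, hs⟩, hone⟩ := h
  have key : ∀ j < pw.length,
      isPerm (pw.getD j 0) = true ∧ permOf (pw.getD j 0) = permOf z ^ (j + 1) := by
    intro j
    induction j with
    | zero => intro _; rw [h0, pow_one]; exact ⟨hz, rfl⟩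
    | succ j ih =>
      intro hj
      obtain ⟨hp, he⟩ := ih (by omega)
      rw [hs j (by omega)]
      obtain ⟨h1, h2⟩ := pmul_spec hz hp
      exact ⟨h1, by rw [h2, he, ← pow_succ']⟩
  refine ⟨hz, Nat.pos_of_ne_zero hl, key, ?_⟩
  obtain ⟨hp, he⟩ := key (pw.length - 1) (by omega)
  have := congrArg permOf hone
  rw [(pmul_spec hz hp).2, he, pone_spec.2, ← pow_succ'] at this
  rwa [show pw.length - 1 + 1 + 1 = pw.length + 1 by omega] at this

theorem iterApp_map {z y : ℕ} (hz : isPerm z = true) (hy : isPerm y = true)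
    {g : Equiv.Perm GolayPt} (hc : g * permOf z = permOf y * g) (e : ℕ) {a : ℕ} (ha : a < 24) :
    idx (g (pt (iterApp z e a))) = iterApp y e (idx (g (pt a))) ∧ iterApp z e a < 24 := by
  induction e with
  | zero => exact ⟨rfl, ha⟩
  | succ e ih =>
    refine ⟨?_, app_lt hz ih.2⟩
    show idx (g (pt (app z (iterApp z e a)))) = app y (iterApp y e (idx (g (pt a))))
    rw [← ih.1, ← permOf_pt hz ih.2]
    have := DFunLike.congr_fun hc (pt (iterApp z e a))
    rw [Equiv.Perm.mul_apply, Equiv.Perm.mul_apply] at this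
    rw [this, permOf_apply hy, idx_pt (app_lt hy (idx_lt _))]

theorem normScan_spec {z : ℕ} {pw E : List ℕ} {u v : ℕ} {L : List Level} {S : List PL}
    (hS : S.all (validB 24) = true) (hc : check 24 L S = true) (hu : u < 24) (hv : v < 24)
    (h : normScan z pw E u v L S = true) {g : Equiv.Perm GolayPt} (hg : g ∈ M24)
    (hgu : g (pt u) = pt u) (hgv : g (pt v) = pt v) {j : ℕ} (hj : j < pw.length)
    (hgz : g * permOf z = permOf (pw.getD j 0) * g) : g ∈ grp S := by
  simp only [normScan, Bool.and_eq_true, bne_iff_ne, List.all_eq_true, List.mem_range,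
    beq_iff_eq] at h
  obtain ⟨⟨⟨⟨hpw, hz0⟩, hE⟩, hok⟩, hall⟩ := h
  obtain ⟨hz, hlen, hpws, -⟩ := powsOK_spec hpw
  have hy := (hpws j hj).1
  set a := idx (g (pt 0)) with ha
  have hal : a < 24 := idx_lt _
  have hk : pw.length * a + j < 24 * pw.length := by
    calc pw.length * a + j < pw.length * a + pw.length := by omega
      _ = pw.length * (a + 1) := by ring
      _ ≤ pw.length * 24 := Nat.mul_le_mul_left _ hal
      _ = _ := mul_comm _ _
  have hd : (pw.length * a + j) / pw.length = a := by
    rw [Nat.mul_add_div hlen, Nat.div_eq_of_lt hj, add_zero]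
  have hm : (pw.length * a + j) % pw.length = j := by
    rw [Nat.mul_add_mod, Nat.mod_eq_of_lt hj]
  have hvalid : normValid pw (pw.length * a + j) = true := by
    simp only [normValid, hd, hm, bne_iff_ne, ne_eq]
    intro he
    have h1 := (iterApp_map hz hy hgz 1 (a := 0) (by norm_num)).1
    simp only [iterApp] at h1
    rw [← ha, he, ha] at h1
    exact hz0 (pt_inj (app_lt hz (by norm_num)) (by norm_num) (g.injective (idx_injective h1)))
  have hmem := scanList_complete hok hg hk hvalid (test := normTest z pw u v)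
    (fun i hi => by
      simp only [normTup, hd, hm]
      rw [ha, ← (iterApp_map hz hy hgz _ (a := 0) (by norm_num)).1, hE i hi])
    (fun f hf => by
      simp only [normTest, Bool.and_eq_true, beq_iff_eq, List.any_eq_true, List.all_eq_true,
        List.mem_range]
      refine ⟨⟨by rw [hf u hu, hgu, idx_pt hu], by rw [hf v hv, hgv, idx_pt hv]⟩, j, hj,
        fun i hi => ?_⟩
      rw [hf _ (app_lt hz hi), hf i hi]
      exact (iterApp_map hz hy hgz 1 hi).1)
  refine mem_grp_of_sift L hS hc g ?_
  rw [img_toFin_eq_unP]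
  exact allList_spec hall _ hmem

/-- A normalising element conjugates the generator to a power. -/
theorem exists_pow_of_normalizer {z : ℕ} {pw : List ℕ} (h : powsOK z pw = true)
    (hz1 : permOf z ≠ 1) {g : Equiv.Perm GolayPt}
    (hg : g * permOf z * g⁻¹ ∈ Subgroup.zpowers (permOf z)) :
    ∃ j < pw.length, g * permOf z = permOf (pw.getD j 0) * g := by
  obtain ⟨-, -, hpws, hone⟩ := powsOK_spec h
  have hfin : IsOfFinOrder (permOf z) := isOfFinOrder_of_finite _
  obtain ⟨n, hn⟩ := hfin.mem_powers_iff_mem_zpowers.mpr hg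
  have hn' : permOf z ^ (n % (pw.length + 1)) = g * permOf z * g⁻¹ := by
    have hn2 : permOf z ^ n = g * permOf z * g⁻¹ := hn
    rw [← hn2]
    conv_rhs => rw [← Nat.div_add_mod n (pw.length + 1), pow_add, pow_mul, hone, one_pow, one_mul]
  rcases Nat.eq_zero_or_pos (n % (pw.length + 1)) with h0 | h0
  · rw [h0, pow_zero] at hn'
    exact absurd (conj_eq_one_iff.mp hn'.symm) hz1
  · refine ⟨n % (pw.length + 1) - 1, by have := Nat.mod_lt n (show 0 < pw.length + 1 by omega); omega,
      ?_⟩
    rw [(hpws _ (by have := Nat.mod_lt n (show 0 < pw.length + 1 by omega); omega)).2,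
      Nat.sub_add_cancel h0, hn']
    group

end Cfsg.Agent.H13
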