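import Cfsg.Agent.H13.Elusive
import Cfsg.Agent.H13.PowerNormalizer
import Cfsg.Agent.H13.DataIndex

/-!
The two-point stabiliser has no subgroups of order 2112 or 7920.
-/

set_option autoImplicit false

namespace Cfsg.Agent.H13

open MulAction Cfsg.Agent.H12 Data
open scoped Pointwise

/-- The counting facts about the normaliser of a subgroup of order `p`. -/
theorem normalizer_count {G : Type*} [Group G] [Finite G] {p : ℕ} [Fact p.Prime] {a : G}
    (ha : orderOf a = p) {H : Subgroup G} (hH : a ∈ H) (hp : ¬ p ^ 2 ∣ Nat.card H) :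
    let N := H ⊓ Subgroup.normalizer (Subgroup.zpowers a : Set G)
    Nat.card N ∣ Nat.card H ∧ p ∣ Nat.card N ∧ (Nat.card H / Nat.card N) % p = 1 := by
  intro N
  have hP : Subgroup.zpowers a ≤ H := Subgroup.zpowers_le.mpr hH
  have hcP : Nat.card ((Subgroup.zpowers a).subgroupOf H) = p := by
    rw [Nat.card_congr (Subgroup.subgroupOfEquivOfLe hP).toEquiv, Nat.card_zpowers, ha]
  have hpd : p ∣ Nat.card H := by rw [← ha]; exact Subgroup.orderOf_dvd_natCard H hH
  have hfac : (Nat.card H).factorization p = 1 := by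
    have hp' : p.Prime := Fact.out
    have h0 : Nat.card H ≠ 0 := Nat.card_pos.ne'
    have h1 := (hp'.pow_dvd_iff_le_factorization h0 (k := 1)).mp (by simpa using hpd)
    by_contra h2
    exact hp ((hp'.pow_dvd_iff_le_factorization h0).mpr (by omega))
  let Q : Sylow p H := Sylow.ofCard ((Subgroup.zpowers a).subgroupOf H) (by rw [hcP, hfac, pow_one])
  have hn := card_sylow_modEq_one p H
  rw [Sylow.card_eq_index_normalizer Q] at hn
  have hQ : Subgroup.normalizer (Q : Set H) = N.subgroupOf H := by
    ext x
    show x ∈ Subgroup.normalizer (((Subgroup.zpowers a).subgroupOf H : Subgroup H) : Set H) ↔ _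
    rw [Subgroup.mem_normalizer_iff, Subgroup.mem_subgroupOf, Subgroup.mem_inf,
      Subgroup.mem_normalizer_iff]
    show (∀ h : H, h ∈ (Subgroup.zpowers a).subgroupOf H ↔
      x * h * x⁻¹ ∈ (Subgroup.zpowers a).subgroupOf H) ↔ _
    simp only [Subgroup.mem_subgroupOf, Subgroup.coe_mul, Subgroup.coe_inv]
    refine ⟨fun h => ⟨x.2, fun k => ⟨fun hk => (h ⟨k, hP hk⟩).mp hk, fun hk => ?_⟩⟩,
      fun h k => h.2 k⟩
    have hkH : k ∈ H := by
      simpa [mul_assoc] using H.mul_mem (H.mul_mem (H.inv_mem x.2) (hP hk)) x.2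
    exact (h ⟨k, hkH⟩).mpr hk
  rw [hQ] at hn
  have hcard := Subgroup.card_mul_index (N.subgroupOf H)
  rw [Nat.card_congr (Subgroup.subgroupOfEquivOfLe (inf_le_left : N ≤ H)).toEquiv] at hcard
  refine ⟨Dvd.intro _ hcard, ?_, ?_⟩
  · rw [← ha]
    exact Subgroup.orderOf_dvd_natCard N ⟨hH, Subgroup.le_normalizer (Subgroup.mem_zpowers a)⟩
  · have hN : 0 < Nat.card N := Nat.card_pos
    rw [← hcard, Nat.mul_div_cancel_left _ hN]
    unfold Nat.ModEq at hn
    rw [hn]
    exact Nat.mod_eq_of_lt (Fact.out : p.Prime).one_lt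

/-- The two-point stabiliser of the data. -/
def twoStab : Subgroup (Equiv.Perm GolayPt) :=
  M24 ⊓ stabilizer (Equiv.Perm GolayPt) (pt idxU) ⊓ stabilizer (Equiv.Perm GolayPt) (pt idxV)

theorem card_twoStab : Nat.card twoStab = 443520 := by
  obtain ⟨g, hg⟩ := conj_stab22 (p := pt idxU) (q := pt idxV) (by decide +kernel)
  have e : (stabilizer M24 (pt idxU) ⊓ stabilizer M24 (pt idxV) : Subgroup M24) =
      twoStab.subgroupOf M24 := by
    ext x
    rw [Subgroup.mem_subgroupOf, twoStab, Subgroup.mem_inf, Subgroup.mem_inf, Subgroup.mem_inf]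
    exact ⟨fun h => ⟨⟨x.2, h.1⟩, h.2⟩, fun h => ⟨h.1.2, h.2⟩⟩
  have hle : twoStab ≤ M24 := inf_le_left.trans inf_le_left
  rw [← Nat.card_congr (Subgroup.subgroupOfEquivOfLe hle).toEquiv, ← e,
    ← Nat.card_congr (mapEquiv g hg).toEquiv,
    Nat.card_congr (subgroupOfEquivGrp g22_le stab22).toEquiv, card_g22]

theorem normScan_eleven : normScan (pack elevenP.1) elevenPows elevenExp idxU idxV norm55Levels
    [elevenP, fiveP] = true := by decide +kernel

theorem normScan_five : normScan (pack fiveP.1) fivePows fiveExp idxU idxV norm20Levels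
    [fiveP, fourP] = true := by decide +kernel

theorem norm55_check : check 24 norm55Levels [elevenP, fiveP] = true := by decide +kernel

theorem norm20_check : check 24 norm20Levels [fiveP, fourP] = true := by decide +kernel

theorem gen3_check : check 24 gen3Levels [elevenP, fiveP, fourP] = true := by decide +kernel

theorem three_valid : [elevenP, fiveP, fourP].all (validB 24) = true := by decide +kernel

theorem three_fix : ([elevenP, fiveP, fourP].all fun a => fixesCode (pack a.1) &&
    a.1.getD idxU 0 == idxU && a.1.getD idxV 0 == idxV) = true := by decide +kernel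

/-- A permutation from a valid pair. -/
theorem exists_of_pair {S : List PL} (hS : S.all (validB 24) = true) {a : PL} (ha : a ∈ S) :
    img (toFin (permOf (pack a.1))) = a.1 ∧ permOf (pack a.1) ∈ grp S := by
  obtain ⟨σ, hσ, he⟩ := valid_genGroup (valid_all hS) a ha
  rw [he, (permOf_pack_img σ).2, toFin.apply_symm_apply]
  exact ⟨rfl, by rw [mem_grp, toFin.apply_symm_apply]; exact hσ⟩

theorem three_le : grp [elevenP, fiveP, fourP] ≤ twoStab := by
  have h := three_fix
  simp only [List.all_eq_true, Bool.and_eq_true] at h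
  refine le_inf (le_inf (grp_le_M24 three_valid (List.all_eq_true.mpr fun a ha => (h a ha).1.1))
    (grp_le_stabilizer_pt three_valid (by decide +kernel)
      (List.all_eq_true.mpr fun a ha => (h a ha).1.2)))
    (grp_le_stabilizer_pt three_valid (by decide +kernel)
      (List.all_eq_true.mpr fun a ha => (h a ha).2))

/-- The normaliser of a scanned element inside a subgroup of the two-point stabiliser. -/
theorem normalizer_le_grp {z : ℕ} {pw E : List ℕ} {L : List Level} {S : List PL}
    (hS : S.all (validB 24) = true) (hc : check 24 L S = true)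
    (h : normScan z pw E idxU idxV L S = true) (hz1 : permOf z ≠ 1)
    {H : Subgroup (Equiv.Perm GolayPt)} (hH : H ≤ twoStab) :
    H ⊓ Subgroup.normalizer (Subgroup.zpowers (permOf z) : Set (Equiv.Perm GolayPt)) ≤ grp S := by
  rintro g ⟨hgH, hgN⟩
  obtain ⟨⟨hgM, hgu⟩, hgv⟩ := hH hgH
  have hp : powsOK z pw = true := by
    simp only [normScan, Bool.and_eq_true] at h
    exact h.1.1.1.1
  obtain ⟨j, hj, he⟩ := exists_pow_of_normalizer hp hz1 (g := g)
    ((Subgroup.mem_normalizer_iff.mp hgN _).mp (Subgroup.mem_zpowers _))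
  exact normScan_spec hS hc (by decide +kernel) (by decide +kernel) h hgM hgu hgv hj he

theorem orderOf_of_pows {z p : ℕ} {pw : List ℕ} [Fact p.Prime] (h : powsOK z pw = true)
    (hl : pw.length + 1 = p) (hz1 : permOf z ≠ 1) : orderOf (permOf z) = p :=
  orderOf_eq_prime (hl ▸ (powsOK_spec h).2.2.2) hz1

theorem permOf_ne_one {z : ℕ} (hz : isPerm z = true) (h0 : app z 0 ≠ 0) : permOf z ≠ 1 := by
  intro h
  apply h0
  have := permOf_pt hz (i := 0) (by norm_num)
  rw [h, Equiv.Perm.one_apply] at this
  exact (pt_inj (by norm_num) (app_lt hz (by norm_num)) this).symm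

/-- No subgroups of these orders in the two-point stabiliser. -/
theorem twoStab_no_order {H : Subgroup (Equiv.Perm GolayPt)} (hle : H ≤ twoStab)
    (hcard : Nat.card H = 2112 ∨ Nat.card H = 7920)
    (hmem : permOf (pack elevenP.1) ∈ H) : False := by
  have f11 : Fact (Nat.Prime 11) := ⟨by norm_num⟩
  have f5 : Fact (Nat.Prime 5) := ⟨by norm_num⟩
  have h11p : powsOK (pack elevenP.1) elevenPows = true := by decide +kernel
  have h5p : powsOK (pack fiveP.1) fivePows = true := by decide +kernel
  have hz11 : permOf (pack elevenP.1) ≠ 1 :=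
    permOf_ne_one (powsOK_spec h11p).1 (by decide +kernel)
  have hz5 : permOf (pack fiveP.1) ≠ 1 := permOf_ne_one (powsOK_spec h5p).1 (by decide +kernel)
  have o11 := orderOf_of_pows (p := 11) h11p (by decide +kernel) hz11
  have o5 := orderOf_of_pows (p := 5) h5p (by decide +kernel) hz5
  have hv55 : [elevenP, fiveP].all (validB 24) = true := by decide +kernel
  have hv20 : [fiveP, fourP].all (validB 24) = true := by decide +kernel
  obtain ⟨hd, hp, hm⟩ := normalizer_count o11 hmem
    (by rcases hcard with h | h <;> rw [h] <;> norm_num)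
  have hle55 := normalizer_le_grp hv55 norm55_check normScan_eleven hz11 hle
  have c55 : Nat.card (grp [elevenP, fiveP]) = 55 :=
    (card_grp _ hv55 norm55_check).trans (by decide +kernel)
  have hd55 := Subgroup.card_dvd_of_le hle55
  rw [c55] at hd55
  have hmem55 := (Nat.mem_divisors.mpr ⟨hd55, by norm_num⟩)
  rw [show (55 : ℕ).divisors = {1, 5, 11, 55} by decide +kernel] at hmem55
  simp only [Finset.mem_insert, Finset.mem_singleton] at hmem55
  rcases hcard with hcard | hcard
  · rw [hcard] at hd hm
    rcases hmem55 with e | e | e | e <;> rw [e] at hd hp hm <;> omega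
  · rw [hcard] at hd hm
    have h55 : Nat.card ↥(H ⊓ Subgroup.normalizer
        (Subgroup.zpowers (permOf (pack elevenP.1)) : Set (Equiv.Perm GolayPt))) = 55 := by
      rcases hmem55 with e | e | e | e
      · rw [e] at hp; norm_num at hp
      · rw [e] at hp; norm_num at hp
      · rw [e] at hm; norm_num at hm
      · exact e
    have eq55 := Subgroup.eq_of_le_of_card_ge hle55 (by rw [c55, h55])
    have h5mem : permOf (pack fiveP.1) ∈ H :=
      (eq55.ge (exists_of_pair hv55 (by simp)).2).1
    obtain ⟨hd5, hp5, hm5⟩ := normalizer_count o5 h5mem (by rw [hcard]; norm_num)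
    have hle20 := normalizer_le_grp hv20 norm20_check normScan_five hz5 hle
    have c20 : Nat.card (grp [fiveP, fourP]) = 20 :=
      (card_grp _ hv20 norm20_check).trans (by decide +kernel)
    have hd20 := Subgroup.card_dvd_of_le hle20
    rw [c20] at hd20
    have hmem20 := (Nat.mem_divisors.mpr ⟨hd20, by norm_num⟩)
    rw [show (20 : ℕ).divisors = {1, 2, 4, 5, 10, 20} by decide +kernel] at hmem20
    simp only [Finset.mem_insert, Finset.mem_singleton] at hmem20
    rw [hcard] at hd5 hm5
    have h20 : Nat.card ↥(H ⊓ Subgroup.normalizer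
        (Subgroup.zpowers (permOf (pack fiveP.1)) : Set (Equiv.Perm GolayPt))) = 20 := by
      rcases hmem20 with e | e | e | e | e | e
      · rw [e] at hp5; norm_num at hp5
      · rw [e] at hp5; norm_num at hp5
      · rw [e] at hp5; norm_num at hp5
      · rw [e] at hm5; norm_num at hm5
      · rw [e] at hm5; norm_num at hm5
      · exact e
    have eq20 := Subgroup.eq_of_le_of_card_ge hle20 (by rw [c20, h20])
    have h4mem : permOf (pack fourP.1) ∈ H := (eq20.ge (exists_of_pair hv20 (by simp)).2).1
    have hgen : grp [elevenP, fiveP, fourP] ≤ H := by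
      refine grp_le three_valid fun a ha g hg => ?_
      have : g = permOf (pack a.1) :=
        toFin.injective (img_injective (hg.trans (exists_of_pair three_valid ha).1.symm))
      subst this
      simp only [List.mem_cons, List.not_mem_nil, or_false] at ha
      rcases ha with rfl | rfl | rfl
      exacts [hmem, h5mem, h4mem]
    have hdiv := Subgroup.card_dvd_of_le hgen
    rw [card_grp _ three_valid gen3_check, hcard,
      show chainCard gen3Levels = 443520 by decide +kernel] at hdiv
    norm_num at hdiv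

/-- The same without a distinguished element. -/
theorem twoStab_no_order' {H : Subgroup (Equiv.Perm GolayPt)} (hle : H ≤ twoStab)
    (hcard : Nat.card H = 2112 ∨ Nat.card H = 7920) : False := by
  have f11 : Fact (Nat.Prime 11) := ⟨by norm_num⟩
  have h11p : powsOK (pack elevenP.1) elevenPows = true := by decide +kernel
  have hz11 : permOf (pack elevenP.1) ≠ 1 :=
    permOf_ne_one (powsOK_spec h11p).1 (by decide +kernel)
  have ha : permOf (pack elevenP.1) ∈ twoStab :=
    three_le (exists_of_pair three_valid (by simp)).2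
  let a : twoStab := ⟨_, ha⟩
  have oa : orderOf a = 11 := by
    rw [← Subgroup.orderOf_coe]; exact orderOf_of_pows h11p (by decide +kernel) hz11
  obtain ⟨x, hx⟩ := exists_prime_orderOf_dvd_card' (G := H) 11
    (by rcases hcard with h | h <;> rw [h] <;> norm_num)
  let x' : twoStab := ⟨x, hle x.2⟩
  have ox : orderOf x' = 11 := by
    rw [← Subgroup.orderOf_coe]; exact (Subgroup.orderOf_coe x).trans hx
  obtain ⟨c, hc⟩ := exists_conj_mem (p := 11) (Subgroup.zpowers a) (k := 1)
    (by rw [Nat.card_zpowers, oa, pow_one]) (by rw [card_twoStab]; norm_num) (g := x')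
    (IsPGroup.of_card (n := 1) (by rw [Nat.card_zpowers, ox, pow_one]))
  have hall : Subgroup.zpowers (c * x' * c⁻¹) = Subgroup.zpowers a :=
    Subgroup.eq_of_le_of_card_ge (Subgroup.zpowers_le.mpr hc) (by
      rw [Nat.card_zpowers, Nat.card_zpowers, oa, ← MulAut.conj_apply, MulEquiv.orderOf_eq, ox])
  refine twoStab_no_order (H := MulAut.conj (c : Equiv.Perm GolayPt) • H) ?_ ?_ ?_
  · intro y hy
    rw [Subgroup.mem_pointwise_smul_iff_inv_smul_mem] at hy
    have h2 := hle hy
    have := twoStab.mul_mem (twoStab.mul_mem c.2 h2) (twoStab.inv_mem c.2)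
    simpa [mul_assoc] using this
  · rwa [← Nat.card_congr (Subgroup.equivSMul _ H).toEquiv]
  · obtain ⟨n, hn⟩ := Subgroup.mem_zpowers_iff.mp (hall.ge (Subgroup.mem_zpowers a))
    have he : permOf (pack elevenP.1) = ((c * x' * c⁻¹) ^ n : twoStab) := by rw [hn]
    rw [he, Subgroup.coe_zpow]
    refine Subgroup.zpow_mem _ ?_ n
    exact Subgroup.smul_mem_pointwise_smul _ _ _ x.2

/-- No subgroups of index 56 or 210 in any two-point stabiliser. -/
theorem index_ne {p q : GolayPt} (hpq : p ≠ q)
    (H : Subgroup ↥(stabilizer M24 p ⊓ stabilizer M24 q)) : H.index ≠ 56 ∧ H.index ≠ 210 := by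
  obtain ⟨g₁, hg₁⟩ := conj_stab22 hpq
  obtain ⟨g₂, hg₂⟩ := conj_stab22 (p := pt idxU) (q := pt idxV) (by decide +kernel)
  let e := (mapEquiv g₁ hg₁).symm.trans (mapEquiv g₂ hg₂)
  let f := (Subgroup.subtype M24).comp
    ((Subgroup.subtype (stabilizer M24 (pt idxU) ⊓ stabilizer M24 (pt idxV))).comp e.toMonoidHom)
  have hf : Function.Injective f :=
    Subtype.val_injective.comp (Subtype.val_injective.comp e.injective)
  have hcard : Nat.card ↥(stabilizer M24 p ⊓ stabilizer M24 q) = 443520 := by
    rw [← Nat.card_congr (mapEquiv g₁ hg₁).toEquiv,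
      Nat.card_congr (subgroupOfEquivGrp g22_le stab22).toEquiv, card_g22]
  have hle : H.map f ≤ twoStab := by
    rintro _ ⟨x, -, rfl⟩
    exact ⟨⟨((e x : M24)).2, (e x).2.1⟩, (e x).2.2⟩
  have key : ∀ n, H.index = n → n = 56 ∨ n = 210 → False := by
    intro n hn h
    have hi := H.card_mul_index
    rw [hn, hcard] at hi
    refine twoStab_no_order' hle ?_
    rw [Subgroup.card_map_of_injective hf]
    rcases h with rfl | rfl <;> omega
  exact ⟨fun h => key 56 h (Or.inl rfl), fun h => key 210 h (Or.inr rfl)⟩

end Cfsg.Agent.H13
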