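import Cfsg.Agent.H13.Transfer
import Cfsg.Agent.H13.FamTree
import Cfsg.Agent.H13.DataQuartet
import Cfsg.Agent.H11.OctadCounts
import Cfsg.Prelude.Def_SporadicCombinatorics

/-!
The 220 quartets of the dodecad of squares form one orbit.
-/

set_option autoImplicit false

namespace Cfsg.Agent.H13

open MulAction Cfsg.Agent.H12 Data
open scoped Pointwise

/-- The triples of the dodecad of squares, as masks. -/
def tripleMasks : List ℕ :=
  sqList.flatMap fun a => (sqList.filter fun b => a < b).flatMap fun b =>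
    (sqList.filter fun c => b < c).map fun c => 1 <<< a ||| 1 <<< b ||| 1 <<< c

/-- Two triples form a hexad. -/
def goodPair (t u : ℕ) : Bool := t &&& u == 0 && hexMasks.contains (t ||| u)

/-- The triples forming a hexad with `t`. -/
def partners (t : ℕ) : List ℕ :=
  (hexMasks.filter fun h => t &&& h == t).map fun h => h ^^^ t

theorem mem_partners {t u : ℕ} (h : goodPair t u = true) : u ∈ partners t := by
  rw [goodPair, Bool.and_eq_true, beq_iff_eq, List.contains_iff_mem] at h
  simp only [partners, List.mem_map, List.mem_filter, beq_iff_eq]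
  refine ⟨t ||| u, ⟨h.2, ?_⟩, ?_⟩
  · refine Nat.eq_of_testBit_eq fun i => ?_
    simp only [Nat.testBit_and, Nat.testBit_or]
    cases t.testBit i <;> simp
  · refine Nat.eq_of_testBit_eq fun i => ?_
    have := congrArg (fun m => Nat.testBit m i) h.1
    simp only [Nat.testBit_and, Nat.zero_testBit] at this
    simp only [Nat.testBit_xor, Nat.testBit_or]
    revert this
    cases t.testBit i <;> cases u.testBit i <;> simp

/-- All ordered quartets whose first triple contains `0`. -/
def quartList : List (List ℕ) :=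
  (tripleMasks.filter fun t => t.testBit 0).flatMap fun t =>
    let c1 := partners t
    c1.flatMap fun u =>
      let c2 := c1.filter fun v => goodPair u v
      c2.flatMap fun v => (c2.filter fun w => goodPair v w).map fun w => [t, u, v, w]

theorem hexMasks_spec : ∀ h ∈ hexMasks,
    pop h = 6 ∧ H11.octadList.any (fun o => o &&& sqMask == h) = true := by decide +kernel

theorem hexMasks_complete : (H11.octadList.all fun o =>
    pop (o &&& sqMask) != 6 || hexMasks.contains (o &&& sqMask)) = true := by decide +kernel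

theorem mem_hexadsOn_sq {m : ℕ} (hm : m < 2 ^ 24) :
    fin m ∈ hexadsOn Spor.squareDodecad ↔ m ∈ hexMasks := by
  constructor
  · rintro ⟨h6, o, ho, he⟩
    rw [H11.octadList_spec.1] at ho
    simp only [List.coe_toFinset, List.mem_map, Set.mem_ofPred_eq] at ho
    obtain ⟨k, hk, rfl⟩ := ho
    rw [← sqMask_eq, ← fin_land] at he
    have hke : k &&& sqMask = m :=
      fin_inj (lt_of_le_of_lt Nat.and_le_right (by norm_num [sqMask])) hm he
    have := List.all_eq_true.mp hexMasks_complete k hk
    rw [card_fin] at h6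
    simp only [hke, h6, Bool.or_eq_true, bne_iff_ne, ne_eq, not_true_eq_false, false_or,
      List.contains_iff_mem] at this
    exact this
  · intro h
    obtain ⟨h6, ho⟩ := hexMasks_spec m h
    obtain ⟨k, hk, hke⟩ := List.any_eq_true.mp ho
    rw [beq_iff_eq] at hke
    refine ⟨by rw [card_fin, h6], fin k, ?_, by rw [← sqMask_eq, ← fin_land, hke]⟩
    rw [H11.octadList_spec.1]
    simp only [List.coe_toFinset, List.mem_map, Set.mem_ofPred_eq]
    exact ⟨k, hk, rfl⟩

theorem triple_mask {t : Finset GolayPt} (ht : t.card = 3) (hsub : t ⊆ Spor.squareDodecad) :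
    ∃ m ∈ tripleMasks, fin m = t := by
  obtain ⟨a, b, c, hab, hac, hbc, rfl⟩ := Finset.card_eq_three.mp ht
  have h : ∀ i ∈ sqList, ∀ j ∈ sqList, ∀ k ∈ sqList, i ≠ j → i ≠ k → j ≠ k →
      (1 <<< i ||| 1 <<< j ||| 1 <<< k) ∈ tripleMasks := by decide +kernel
  have hin : ∀ z ∈ ({a, b, c} : Finset GolayPt), idx z ∈ sqList := fun z hz =>
    idx_mem_sqList.mpr (hsub hz)
  refine ⟨_, h _ (hin a (by simp)) _ (hin b (by simp)) _ (hin c (by simp))
    (fun e => hab (idx_injective e)) (fun e => hac (idx_injective e))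
    (fun e => hbc (idx_injective e)), ?_⟩
  rw [fin_lor, fin_lor, fin_shiftLeft_one (idx_lt a), fin_shiftLeft_one (idx_lt b),
    fin_shiftLeft_one (idx_lt c), pt_idx, pt_idx, pt_idx]
  ext z
  simp

/-- Insertion into a sorted list. -/
def ins4 (a : ℕ) : List ℕ → List ℕ
  | [] => [a]
  | b :: l => if a < b then a :: b :: l else b :: ins4 a l

/-- The code of four masks. -/
def code4 (l : List ℕ) : ℕ :=
  (l.foldr ins4 []).foldr (fun a c => (c <<< 24) ||| a) 0

theorem quartList_in_orbit : (quartList.all fun l =>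
    (quartBase :: quartOrbitLists.flatten).contains (code4 l) &&
      sameList l (dec4 (code4 l))) = true := by decide +kernel

theorem quartet_code {Q : Finset (Finset GolayPt)} (hQ : Q ∈ quartets Spor.squareDodecad) :
    ∃ c ∈ quartBase :: quartOrbitLists.flatten, fam4 c = Q := by
  obtain ⟨h4, h3, hh⟩ := hQ
  have hdisj : ∀ t ∈ Q, ∀ u ∈ Q, t ≠ u → Disjoint t u := by
    intro t ht u hu hne
    rw [← Finset.card_union_eq_card_add_card, (hh t ht u hu hne).1, (h3 t ht).1, (h3 u hu).1]
  have hcover : Q.biUnion (fun t => t) = Spor.squareDodecad := by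
    refine Finset.eq_of_subset_of_card_le (Finset.biUnion_subset.mpr fun t ht => (h3 t ht).2) ?_
    rw [Finset.card_biUnion (fun t ht u hu hne => hdisj t ht u hu hne),
      Finset.sum_congr rfl (g := fun _ => 3) (fun t ht => (h3 t ht).1), Finset.sum_const, h4]
    decide +kernel
  have h0 : pt 0 ∈ Q.biUnion (fun t => t) := by rw [hcover]; decide +kernel
  obtain ⟨t, ht, h0t⟩ := Finset.mem_biUnion.mp h0
  obtain ⟨u, v, w, huv, huw, hvw, he⟩ := Finset.card_eq_three.mp
    (show (Q.erase t).card = 3 by rw [Finset.card_erase_of_mem ht, h4])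
  have hmem : ∀ z, z = u ∨ z = v ∨ z = w → z ∈ Q ∧ z ≠ t := fun z hz => by
    have : z ∈ Q.erase t := by rw [he]; simpa using hz
    exact ⟨Finset.mem_of_mem_erase this, Finset.ne_of_mem_erase this⟩
  obtain ⟨hu, hut⟩ := hmem u (Or.inl rfl)
  obtain ⟨hv, hvt⟩ := hmem v (Or.inr (Or.inl rfl))
  obtain ⟨hw, hwt⟩ := hmem w (Or.inr (Or.inr rfl))
  obtain ⟨a, ha, rfl⟩ := triple_mask (h3 t ht).1 (h3 t ht).2
  obtain ⟨b, hb, rfl⟩ := triple_mask (h3 u hu).1 (h3 u hu).2
  obtain ⟨c, hc, rfl⟩ := triple_mask (h3 v hv).1 (h3 v hv).2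
  obtain ⟨e, he', rfl⟩ := triple_mask (h3 w hw).1 (h3 w hw).2
  have hlt : ∀ m ∈ tripleMasks, m < 2 ^ 24 := by decide +kernel
  have good : ∀ x ∈ tripleMasks, ∀ y ∈ tripleMasks, fin x ∈ Q → fin y ∈ Q → fin x ≠ fin y →
      goodPair x y = true := by
    intro x hx y hy hxQ hyQ hne
    rw [goodPair, Bool.and_eq_true, beq_iff_eq, List.contains_iff_mem,
      ← mem_hexadsOn_sq (Nat.or_lt_two_pow (hlt x hx) (hlt y hy)), fin_lor]
    exact ⟨(disjoint_fin_iff (hlt x hx)).mp (hdisj _ hxQ _ hyQ hne), hh _ hxQ _ hyQ hne⟩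
  have hl : [a, b, c, e] ∈ quartList := by
    simp only [quartList, List.mem_flatMap, List.mem_filter, List.mem_map]
    refine ⟨a, ⟨ha, by rw [mem_fin, idx_pt (by norm_num)] at h0t; exact h0t⟩,
      b, mem_partners (good a ha b hb ht hu hut.symm),
      c, ⟨mem_partners (good a ha c hc ht hv hvt.symm), good b hb c hc hu hv huv⟩,
      e, ⟨⟨mem_partners (good a ha e he' ht hw hwt.symm), good b hb e he' hu hw huw⟩,
        good c hc e he' hv hw hvw⟩, rfl⟩
  have hk := List.all_eq_true.mp quartList_in_orbit _ hl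
  rw [Bool.and_eq_true, List.contains_iff_mem] at hk
  obtain ⟨hk, hks⟩ := hk
  refine ⟨_, hk, ?_⟩
  rw [fam4, ← fins_eq_of_sameList hks]
  ext z
  rw [mem_fins]
  constructor
  · rintro ⟨m, hm, rfl⟩
    fin_cases hm <;> assumption
  · intro hz
    by_cases hza : z = fin a
    · exact ⟨a, by simp, hza.symm⟩
    · have : z ∈ Q.erase (fin a) := Finset.mem_erase.mpr ⟨hza, hz⟩
      rw [he] at this
      simp only [Finset.mem_insert, Finset.mem_singleton] at this
      rcases this with rfl | rfl | rfl
      exacts [⟨b, by simp, rfl⟩, ⟨c, by simp, rfl⟩, ⟨e, by simp, rfl⟩]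

/-- Checks making a code a quartet. -/
def isQuartCode (c : ℕ) : Bool :=
  (dec4 c).all (fun t => pop t == 3 && t &&& sqMask == t) &&
    ((dec4 c).all fun t => (dec4 c).all fun u => t == u || hexMasks.contains (t ||| u)) &&
    distinct (dec4 c)

theorem quartBase_isQuart : isQuartCode quartBase = true := by decide +kernel

theorem quartBase_mem : fam4 quartBase ∈ quartets Spor.squareDodecad := by
  have h := quartBase_isQuart
  simp only [isQuartCode, Bool.and_eq_true, List.all_eq_true, Bool.or_eq_true, beq_iff_eq,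
    List.contains_iff_mem] at h
  obtain ⟨⟨h3, hh⟩, hd⟩ := h
  have hlt : ∀ t ∈ dec4 quartBase, t < 2 ^ 24 := by decide +kernel
  refine ⟨?_, ?_, ?_⟩
  · rw [fam4, fins, List.toFinset_card_of_nodup
      ((distinct_nodup _ hd).map_on fun a ha b hb e => fin_inj (hlt a ha) (hlt b hb) e)]
    rfl
  · intro x hx
    obtain ⟨t, ht, rfl⟩ := mem_fins.mp hx
    refine ⟨by rw [card_fin]; exact (h3 t ht).1, ?_⟩
    rw [← sqMask_eq, subset_fin_iff (hlt t ht)]
    exact (h3 t ht).2
  · intro x hx y hy hne
    obtain ⟨t, ht, rfl⟩ := mem_fins.mp hx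
    obtain ⟨u, hu, rfl⟩ := mem_fins.mp hy
    rcases hh t ht u hu with e | e
    · exact absurd (by rw [e]) hne
    · rw [← fin_lor, mem_hexadsOn_sq (Nat.or_lt_two_pow (hlt t ht) (hlt u hu))]
      exact e

theorem smul_mem_quartets {g : Equiv.Perm GolayPt} (hg : g ∈ M24) {d : Finset GolayPt}
    {Q : Finset (Finset GolayPt)} (hQ : Q ∈ quartets d) : g • Q ∈ quartets (g • d) := by
  obtain ⟨h4, h3, hh⟩ := hQ
  refine ⟨by rw [Finset.card_smul_finset]; exact h4, ?_, ?_⟩
  · intro x hx
    obtain ⟨t, ht, rfl⟩ := Finset.mem_smul_finset.mp hx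
    exact ⟨by rw [Finset.card_smul_finset]; exact (h3 t ht).1,
      Finset.smul_finset_subset_smul_finset (h3 t ht).2⟩
  · intro x hx y hy hne
    obtain ⟨t, ht, rfl⟩ := Finset.mem_smul_finset.mp hx
    obtain ⟨u, hu, rfl⟩ := Finset.mem_smul_finset.mp hy
    obtain ⟨h6, o, ho, he⟩ := hh t ht u hu (fun e => hne (by rw [e]))
    refine ⟨?_, g • o, (smul_mem_octads hg).mpr ho, ?_⟩
    · rw [← Finset.smul_finset_union, Finset.card_smul_finset, h6]
    · rw [← Finset.smul_finset_inter, he, Finset.smul_finset_union]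

theorem quart_reach : famTree g12 quartBase quartTree = true := by decide +kernel

theorem quart_cover : ((quartBase :: quartOrbitLists.flatten).all fun a => quartTree.has a) = true := by
  decide +kernel

theorem g12_fix_sq {g : Equiv.Perm GolayPt} (hg : g ∈ grp g12) :
    g • Spor.squareDodecad = Spor.squareDodecad := by
  have := grp_le_stabilizer_fin g12_valid (m := sqMask) (by decide +kernel) hg
  rwa [sqMask_eq] at this

theorem exists_map_quartet {Q : Finset (Finset GolayPt)} (hQ : Q ∈ quartets Spor.squareDodecad) :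
    ∃ g ∈ grp g12, g • fam4 quartBase = Q := by
  obtain ⟨c, hc, rfl⟩ := quartet_code hQ
  exact famTree_reach g12_valid quart_reach (List.all_eq_true.mp quart_cover c hc)

/-- The quartets of the dodecad of squares are the coded ones. -/
theorem quartets_sq : quartets Spor.squareDodecad =
    ((((quartBase :: quartOrbitLists.flatten).map fam4).toFinset : Finset _) :
      Set (Finset (Finset GolayPt))) := by
  ext Q
  simp only [List.coe_toFinset, List.mem_map, Set.mem_ofPred_eq]
  constructor
  · exact fun hQ => quartet_code hQ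
  · rintro ⟨c, hc, rfl⟩
    obtain ⟨g, hg, he⟩ := famTree_reach g12_valid quart_reach (List.all_eq_true.mp quart_cover c hc)
    rw [← he, ← g12_fix_sq hg]
    exact smul_mem_quartets (g12_le hg) quartBase_mem

/-- Moving the standard dodecad and quartet anywhere. -/
theorem exists_map_dodecad_quartet {d : Finset GolayPt} (hd : d ∈ dodecads)
    {Q : Finset (Finset GolayPt)} (hQ : Q ∈ quartets d) :
    ∃ g : M24, g • Spor.squareDodecad = d ∧ g • fam4 quartBase = Q := by
  obtain ⟨g, hg⟩ := S0368.result _ d sq_mem hd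
  have hQ' : (g : Equiv.Perm GolayPt)⁻¹ • Q ∈ quartets Spor.squareDodecad := by
    have := smul_mem_quartets (Subgroup.inv_mem _ g.2) hQ
    rw [← hg] at this
    rwa [show (g : Equiv.Perm GolayPt)⁻¹ • g • Spor.squareDodecad = Spor.squareDodecad from
      inv_smul_smul (g : Equiv.Perm GolayPt) _] at this
  obtain ⟨k, hk, hke⟩ := exists_map_quartet hQ'
  let k' : M24 := ⟨k, g12_le hk⟩
  refine ⟨g * k', ?_, ?_⟩
  · rw [mul_smul]
    rw [show k' • Spor.squareDodecad = Spor.squareDodecad from g12_fix_sq hk, hg]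
  · rw [mul_smul]
    show g • (k • fam4 quartBase) = Q
    rw [hke]
    exact smul_inv_smul (g : Equiv.Perm GolayPt) Q

end Cfsg.Agent.H13
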