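import Cfsg.Agent.H13.QuartetStab

/-!
The orbits of a quartet stabiliser on the quartets of its dodecad.
-/

set_option autoImplicit false

namespace Cfsg.Agent.H13

open MulAction Cfsg.Agent.H12 Data
open scoped Pointwise

/-- The families of a list of codes. -/
def famSet (l : List ℕ) : Set (Finset (Finset GolayPt)) := ((l.map fam4).toFinset : Finset _)

theorem mem_famSet {l : List ℕ} {x : Finset (Finset GolayPt)} :
    x ∈ famSet l ↔ ∃ c ∈ l, fam4 c = x := by
  simp [famSet]

theorem famSet_append (a b : List ℕ) : famSet (a ++ b) = famSet a ∪ famSet b := by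
  ext x
  simp only [Set.mem_union, mem_famSet, List.mem_append, or_and_right, exists_or]

theorem famSet_singleton (a : ℕ) : famSet [a] = {fam4 a} := by
  ext x
  simp [mem_famSet, eq_comm]

/-- A root, a tree and a list form a suborbit. -/
def suborbB (r : ℕ) (t : MTree) (l : List ℕ) : Bool :=
  l.contains r && famTree quartGens r t && l.all (fun a => t.has a) && famClosed quartGens l &&
    distinctFam l

/-- The conjugate of a suborbit. -/
theorem orbit_conj {r : ℕ} {t : MTree} {l : List ℕ} (h : suborbB r t l = true) {g : M24}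
    {H : Subgroup M24} (hH : MulAut.conj g • (grp quartGens).subgroupOf M24 = H) :
    orbit H (g • fam4 r) = g • famSet l ∧ (orbit H (g • fam4 r)).ncard = l.length := by
  simp only [suborbB, Bool.and_eq_true, List.all_eq_true, List.contains_iff_mem] at h
  obtain ⟨⟨⟨⟨hr, ht⟩, hl⟩, hc⟩, hd⟩ := h
  have heq : orbit H (g • fam4 r) = g • famSet l := by
    subst hH
    ext x
    constructor
    · rintro ⟨⟨h, hh⟩, rfl⟩
      obtain ⟨k, hk, rfl⟩ := hh
      refine ⟨(k : Equiv.Perm GolayPt) • fam4 r, ?_, ?_⟩
      · have hinv := famClosed_invariant quart_valid hc (Subgroup.mem_subgroupOf.mp hk)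
        show _ ∈ famSet l
        rw [famSet, ← hinv]
        exact Set.smul_mem_smul_set (mem_famSet.mpr ⟨r, hr, rfl⟩)
      · show g • k • fam4 r = (g * k * g⁻¹) • g • fam4 r
        rw [mul_smul, mul_smul, inv_smul_smul]
    · rintro ⟨y, hy, rfl⟩
      obtain ⟨a, ha, rfl⟩ := mem_famSet.mp hy
      obtain ⟨k, hk, hka⟩ := famTree_reach quart_valid ht (hl a ha)
      let k' : M24 := ⟨k, quart_le hk⟩
      refine ⟨⟨g * k' * g⁻¹, k', hk, rfl⟩, ?_⟩
      show (g * k' * g⁻¹) • g • fam4 r = g • fam4 a
      rw [mul_smul, mul_smul, inv_smul_smul, ← hka]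
      rfl
  refine ⟨heq, ?_⟩
  rw [heq, Set.ncard_smul_set, famSet, Set.ncard_coe_finset,
    List.toFinset_card_of_nodup (nodup_of_distinctFam _ hd), List.length_map]

/-- The roots. -/
def quartRoot (i : ℕ) : ℕ := (quartOrbits.getD i (0, MTree.leaf)).1

/-- The lists. -/
def quartOrb (i : ℕ) : List ℕ := quartOrbitLists.getD i []

theorem suborb_ok : ((List.range 4).all fun i =>
    suborbB (quartRoot i) (quartOrbits.getD i (0, MTree.leaf)).2 (quartOrb i)) = true := by
  decide +kernel

theorem quartets_sq_split : quartets Spor.squareDodecad =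
    {fam4 quartBase} ∪ famSet (quartOrb 0) ∪ famSet (quartOrb 1) ∪ famSet (quartOrb 2) ∪
      famSet (quartOrb 3) := by
  have h : quartAll = [quartBase] ++ quartOrb 0 ++ quartOrb 1 ++ quartOrb 2 ++ quartOrb 3 := by
    decide +kernel
  rw [← famSet_singleton, ← famSet_append, ← famSet_append, ← famSet_append, ← famSet_append, ← h]
  exact quartets_sq

end Cfsg.Agent.H13
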