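import Cfsg.Agent.H13.QuartetList
import Cfsg.Agent.H13.SmallStab

/-!
The stabiliser of the first quartet of the dodecad of squares.
-/

set_option autoImplicit false

namespace Cfsg.Agent.H13

open MulAction Cfsg.Agent.H12 Data
open scoped Pointwise

theorem quart_valid : quartGens.all (validB 24) = true := by decide +kernel

theorem quart_check : check 24 quartLevels quartGens = true := by decide +kernel

theorem quartNine_valid : quartNine.all (validB 24) = true := by decide +kernel

theorem quartNine_check : check 24 quartNineLevels quartNine = true := by decide +kernel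

theorem quartCompl_valid : quartCompl.all (validB 24) = true := by decide +kernel

theorem quartCompl_check : check 24 quartComplLevels quartCompl = true := by decide +kernel

theorem quart_le12 : grp quartGens ≤ grp g12 :=
  grp_le_grp m12Levels g12_valid quart_valid m12_check (by decide +kernel)

theorem quart_le : grp quartGens ≤ M24 := quart_le12.trans g12_le

theorem card_quartGens : Nat.card (grp quartGens) = 432 :=
  (card_grp _ quart_valid quart_check).trans (by decide +kernel)

theorem quart_fix {g : Equiv.Perm GolayPt} (hg : g ∈ grp quartGens) :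
    g • fam4 quartBase = fam4 quartBase := by
  have h : grp quartGens ≤ stabilizer (Equiv.Perm GolayPt) (fam4 quartBase) := by
    apply grp_le quart_valid
    intro a ha g hg
    have hc : (quartGens.all fun a =>
        sameList ((dec4 quartBase).map (imgMask (pack a.1))) (dec4 quartBase)) = true := by
      decide +kernel
    have he := List.all_eq_true.mp hc a ha
    rw [← hg] at he
    rw [mem_stabilizer_iff, fam4]
    have := smul_fins (permOf_pack_img (toFin g)).1 (dec4 quartBase)
    rw [(permOf_pack_img (toFin g)).2, toFin.symm_apply_apply, fins_eq_of_sameList he] at this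
    exact this
  exact h hg

/-- All quartet codes. -/
def quartAll : List ℕ := quartBase :: quartOrbitLists.flatten

/-- No two codes give the same family. -/
def distinctFam : List ℕ → Bool
  | [] => true
  | a :: l => l.all (fun b => !sameList (dec4 a) (dec4 b)) && distinctFam l

theorem dec4_lt (c : ℕ) : ∀ m ∈ dec4 c, m < 2 ^ 24 := by
  intro m hm
  simp only [dec4, List.mem_cons, List.not_mem_nil, or_false] at hm
  rcases hm with rfl | rfl | rfl | rfl <;>
    exact lt_of_le_of_lt Nat.and_le_right (by norm_num)

theorem sameList_of_fam4 {a b : ℕ} (h : fam4 a = fam4 b) : sameList (dec4 a) (dec4 b) = true := by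
  simp only [sameList, Bool.and_eq_true, List.all_eq_true, List.contains_iff_mem]
  refine ⟨fun m hm => ?_, fun m hm => ?_⟩
  · have : fin m ∈ fam4 b := by rw [← h, fam4, mem_fins]; exact ⟨m, hm, rfl⟩
    obtain ⟨k, hk, he⟩ := mem_fins.mp this
    exact fin_inj (dec4_lt b k hk) (dec4_lt a m hm) he ▸ hk
  · have : fin m ∈ fam4 a := by rw [h, fam4, mem_fins]; exact ⟨m, hm, rfl⟩
    obtain ⟨k, hk, he⟩ := mem_fins.mp this
    exact fin_inj (dec4_lt a k hk) (dec4_lt b m hm) he ▸ hk

theorem nodup_of_distinctFam : ∀ l : List ℕ, distinctFam l = true → (l.map fam4).Nodup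
  | [], _ => List.nodup_nil
  | a :: l, h => by
    rw [distinctFam, Bool.and_eq_true, List.all_eq_true] at h
    rw [List.map_cons, List.nodup_cons]
    refine ⟨fun hm => ?_, nodup_of_distinctFam l h.2⟩
    obtain ⟨b, hb, he⟩ := List.mem_map.mp hm
    have := h.1 b hb
    rw [sameList_of_fam4 he.symm] at this
    simp at this

theorem quartAll_distinct : distinctFam quartAll = true := by decide +kernel

theorem ncard_quartets_sq : (quartets Spor.squareDodecad).ncard = 220 := by
  rw [quartets_sq, Set.ncard_coe_finset, ← quartAll,
    List.toFinset_card_of_nodup (nodup_of_distinctFam _ quartAll_distinct), List.length_map]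
  decide +kernel

theorem g12_inf_quartet :
    grp g12 ⊓ stabilizer (Equiv.Perm GolayPt) (fam4 quartBase) = grp quartGens := by
  refine (Subgroup.eq_of_le_of_card_ge (le_inf quart_le12 fun g hg => quart_fix hg) ?_).symm
  have horb : quartets Spor.squareDodecad ⊆ orbit (grp g12) (fam4 quartBase) := by
    intro Q hQ
    obtain ⟨g, hg, he⟩ := exists_map_quartet hQ
    exact ⟨⟨g, hg⟩, he⟩
  have hle := Set.ncard_le_ncard horb (Set.toFinite _)
  rw [ncard_quartets_sq] at hle
  have hc := (stabilizer (grp g12) (fam4 quartBase)).card_mul_index
  have hstab : stabilizer (grp g12) (fam4 quartBase) =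
      (grp g12 ⊓ stabilizer (Equiv.Perm GolayPt) (fam4 quartBase)).subgroupOf (grp g12) := by
    ext g
    rw [Subgroup.mem_subgroupOf, Subgroup.mem_inf]
    exact ⟨fun hg => ⟨g.2, hg⟩, fun hg => hg.2⟩
  rw [index_stabilizer, hstab, Nat.card_congr (Subgroup.subgroupOfEquivOfLe inf_le_left).toEquiv,
    card_g12] at hc
  rw [card_quartGens]
  refine le_of_mul_le_mul_right ?_ (show (0 : ℕ) < 220 by norm_num)
  calc _ ≤ _ := Nat.mul_le_mul_left _ hle
    _ = _ := hc

/-- The stabiliser in `M24` of the standard dodecad and quartet. -/
theorem stabQuartet : stabilizer M24 Spor.squareDodecad ⊓ stabilizer M24 (fam4 quartBase) =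
    (grp quartGens).subgroupOf M24 := by
  rw [stab12, ← g12_inf_quartet]
  rfl

theorem quart_transitive {p : GolayPt} (hp : p ∈ Spor.squareDodecad) :
    ∃ g ∈ grp quartGens, g (some 0) = p := by
  have h : ∀ n < 24, sqMask.testBit n = true →
      (((quartLevels.headD ⟨0, [], []⟩).trans 24 quartGens).map fun u =>
        u.1.getD (quartLevels.headD ⟨0, [], []⟩).base 0).contains n = true := by decide +kernel
  obtain ⟨g, hg, he⟩ := exists_grp_map _ quart_valid (b := 0) (x := idx p) (by norm_num) (idx_lt p)
    rfl (h _ (idx_lt p) (by rw [← sqMask_eq, mem_fin] at hp; exact hp))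
  exact ⟨g, hg, by rw [← pt_zero, he, pt_idx]⟩

/-- Conjugates of the generators of `T` by those of `S` lie in the group of `T`. -/
theorem grp_normalizes {S T : List PL} (L : List Level) (hS : S.all (validB 24) = true)
    (hT : T.all (validB 24) = true) (hc : check 24 L T = true)
    (h : (S.all fun a => T.all fun c => sift 24 (chain 24 L T) (mulL (mulL a.1 c.1) a.2)) = true) :
    grp S ≤ Subgroup.normalizer (grp T : Set (Equiv.Perm GolayPt)) := by
  apply grp_le hS
  intro a ha g hg
  obtain ⟨σ, -, hσ⟩ := valid_all hS a ha
  have hgs : toFin g = σ := img_injective (hg.trans (congrArg Prod.fst hσ))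
  have hmap : (grp T).map (MulAut.conj g).toMonoidHom ≤ grp T := by
    rw [Subgroup.map_le_iff_le_comap]
    apply grp_le hT
    intro c hc' n hn
    refine mem_grp_of_sift L hT hc _ ?_
    have := List.all_eq_true.mp (List.all_eq_true.mp h a ha) c hc'
    show sift 24 (chain 24 L T) (img (toFin (g * n * g⁻¹))) = true
    rw [map_mul, map_mul, map_inv, ← mulL_img, ← mulL_img, hn, hgs]
    rw [hσ] at this
    exact this
  have heq := Subgroup.eq_of_le_of_card_ge hmap (by
    rw [Subgroup.card_map_of_injective (MulAut.conj g).injective])
  rw [Subgroup.mem_normalizer_iff]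
  intro x
  constructor
  · intro hx
    exact heq ▸ ⟨x, hx, rfl⟩
  · intro hx
    rw [← heq] at hx
    obtain ⟨y, hy, he⟩ := hx
    rwa [← (MulAut.conj g).injective he]

theorem quartCompl_gl_check : ∀ p q r s : ZMod 3, p * s - q * r ≠ 0 →
    (∀ b : Bool, unP (lookupP quartComplTable (keyEntries (glStep (p, q, r, s) b))) =
      mulL (unP (lookupP quartComplTable (keyEntries (p, q, r, s))))
        (unP (lookupP quartComplTable (keyEntries (glStep (1, 0, 0, 1) b))))) ∧
    (unP (lookupP quartComplTable (keyEntries (p, q, r, s))) = List.range 24 ↔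
      (p, q, r, s) = (1, 0, 0, 1)) := by decide +kernel

/-- An image list with its inverse. -/
def withInv (l : List ℕ) : PL := (l, (List.range 24).map fun i => l.idxOf i)

theorem quartCompl_equiv : Nonempty (grp quartCompl ≃* GL (Fin 2) (ZMod 3)) := by
  obtain ⟨e⟩ := nonempty_equiv_quotient (K := GL (Fin 2) (ZMod 3)) (L := quartComplLevels)
    quartCompl_valid quartCompl_check ⊥ (fun g => unP (lookupP quartComplTable (keyGL g)))
    {glA, glB} gl_gen (by rw [keyGL_eq, glEntries_one]; decide +kernel)
    (by
      rintro s (rfl | rfl)
      · exact ⟨withInv (unP (lookupP quartComplTable (keyGL glA))), by decide +kernel, rfl,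
          by decide +kernel⟩
      · exact ⟨withInv (unP (lookupP quartComplTable (keyGL glB))), by decide +kernel, rfl,
          by decide +kernel⟩)
    (by
      intro g s hs
      have h := (quartCompl_gl_check _ _ _ _ (det_ne_zero g)).1
      rcases hs with rfl | rfl
      · have h := h false
        rw [← glEntries_one, ← glEntries_mul, cond_false, one_mul,
          show (g.1 0 0, g.1 0 1, g.1 1 0, g.1 1 1) = glEntries g from rfl, ← glEntries_mul,
          cond_false, ← keyGL_eq, ← keyGL_eq, ← keyGL_eq] at h
        exact h
      · have h := h true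
        rw [← glEntries_one, ← glEntries_mul, cond_true, one_mul,
          show (g.1 0 0, g.1 0 1, g.1 1 0, g.1 1 1) = glEntries g from rfl, ← glEntries_mul,
          cond_true, ← keyGL_eq, ← keyGL_eq, ← keyGL_eq] at h
        exact h)
    (by
      intro g
      rw [Subgroup.mem_bot, keyGL_eq, ← glEntries_injective.eq_iff, glEntries_one]
      exact (quartCompl_gl_check _ _ _ _ (det_ne_zero g)).2)
    (by
      rw [Subgroup.card_bot, Matrix.card_GL_field, ZMod.card, Fin.prod_univ_two]
      decide +kernel)
  exact ⟨e.trans QuotientGroup.quotientBot⟩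

theorem quartCompl_inf_nine {g : Equiv.Perm GolayPt} (h1 : g ∈ grp quartCompl)
    (h2 : g ∈ grp quartNine) : g = 1 := by
  have h : ((elems 24 quartNineLevels quartNine).all fun a => a.1 == List.range 24 ||
      (elems 24 quartComplLevels quartCompl).all fun b => !(b.1 == a.1)) = true := by decide +kernel
  have ha := forall_grp _ quartNine_valid quartNine_check _ h h2
  have hb := mem_elems quartComplLevels (valid_all quartCompl_valid) quartCompl_check
    (mem_grp.mp h1)
  rw [Bool.or_eq_true, beq_iff_eq, List.all_eq_true] at ha
  rcases ha with ha | ha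
  · exact toFin.injective (img_injective (ha.trans (by rw [map_one, img_one])))
  · simpa using ha _ hb

/-- The stabiliser maps onto GL(2, 3). -/
theorem quart_onto : ∃ π : grp quartGens →* GL (Fin 2) (ZMod 3), Function.Surjective π := by
  obtain ⟨e⟩ := quartCompl_equiv
  have hN : grp quartNine ≤ grp quartGens :=
    grp_le_grp quartLevels quart_valid quartNine_valid quart_check (by decide +kernel)
  have hC : grp quartCompl ≤ grp quartGens :=
    grp_le_grp quartLevels quart_valid quartCompl_valid quart_check (by decide +kernel)
  have hn : ((grp quartNine).subgroupOf (grp quartGens)).Normal :=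
    (Subgroup.normal_subgroupOf_iff_le_normalizer hN).mpr
      (grp_normalizes quartNineLevels quart_valid quartNine_valid quartNine_check (by decide +kernel))
  let ψ := (QuotientGroup.mk' ((grp quartNine).subgroupOf (grp quartGens))).comp
    (Subgroup.inclusion hC)
  have hinj : Function.Injective ψ := by
    rw [injective_iff_map_eq_one]
    intro x hx
    have := (QuotientGroup.eq_one_iff _).mp hx
    rw [Subgroup.mem_subgroupOf] at this
    exact Subtype.ext (quartCompl_inf_nine x.2 this)
  have hb : Function.Bijective ψ := by
    rw [Nat.bijective_iff_injective_and_card]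
    refine ⟨hinj, ?_⟩
    have h := Subgroup.card_eq_card_quotient_mul_card_subgroup
      ((grp quartNine).subgroupOf (grp quartGens))
    rw [Nat.card_congr (Subgroup.subgroupOfEquivOfLe hN).toEquiv, card_quartGens,
      card_grp _ quartNine_valid quartNine_check] at h
    rw [card_grp _ quartCompl_valid quartCompl_check]
    refine Nat.eq_of_mul_eq_mul_right (show 0 < chainCard quartNineLevels by decide +kernel) ?_
    rw [← h]
    decide +kernel
  refine ⟨((MulEquiv.ofBijective ψ hb).symm.trans e).toMonoidHom.comp
    (QuotientGroup.mk' ((grp quartNine).subgroupOf (grp quartGens))), ?_⟩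
  exact (MulEquiv.surjective ((MulEquiv.ofBijective ψ hb).symm.trans e)).comp
    (QuotientGroup.mk'_surjective _)

/-- The stabiliser of a dodecad and a quartet on it, conjugate to the standard one. -/
theorem conj_stabQuartet {d : Finset GolayPt} (hd : d ∈ dodecads)
    {Q : Finset (Finset GolayPt)} (hQ : Q ∈ quartets d) : ∃ g : M24,
    g • Spor.squareDodecad = d ∧ g • fam4 quartBase = Q ∧
      MulAut.conj g • (grp quartGens).subgroupOf M24 = stabilizer M24 d ⊓ stabilizer M24 Q := by
  obtain ⟨g, h1, h2⟩ := exists_map_dodecad_quartet hd hQ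
  refine ⟨g, h1, h2, ?_⟩
  rw [← stabQuartet, Subgroup.smul_inf, conj_stabilizer, conj_stabilizer, h1, h2]

end Cfsg.Agent.H13
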